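import Mathlib
import Cfsg.Agent.Lib.Dade.Num

/-!
# The columns of the decomposition of a block with a cyclic defect group
-/

set_option linter.unusedSectionVars false
set_option linter.style.haveILetI false
set_option autoImplicit false

namespace Cfsg.Agent.Lib.Dade.PA

open Cfsg MonoidAlgebra
open Cfsg.Agent.Lib.Blocks.Local Cfsg.Agent.Lib.Blocks.Central
open Cfsg.Agent.Lib.BlockH.MaxPair
open Cfsg.Agent.Lib.BP.StarDefs
open Cfsg.Agent.Lib.Dade.Loc Cfsg.Agent.Lib.Dade.Count Cfsg.Agent.Lib.Dade.Num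

universe u

/-- The number of elements carrying a point to another one. -/
theorem card_filter_smul_eq {T X : Type*} [Group T] [Fintype T] [MulAction T X] [DecidableEq X] (x y : X)
    (h : ∃ t₀ : T, t₀ • x = y) :
    (Finset.univ.filter fun t : T => t • x = y).card = Nat.card (MulAction.stabilizer T x) := by
  classical
  obtain ⟨t₀, rfl⟩ := h
  rw [← Fintype.card_subtype, ← Nat.card_eq_fintype_card]
  refine Nat.card_congr ⟨fun t => ⟨t₀⁻¹ * t.1, ?_⟩, fun s => ⟨t₀ * s.1, ?_⟩, ?_, ?_⟩
  · rw [MulAction.mem_stabilizer_iff, mul_smul, t.2, inv_smul_smul]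
  · rw [mul_smul, MulAction.mem_stabilizer_iff.mp s.2]
  · intro t
    simp
  · intro s
    simp

section Col

variable {G : Type u} [Group G] [Fintype G] {p : ℕ} {M : Ideal AlgInt} [Fact p.Prime]

attribute [local instance] fK fIrr fBl fDual fOrb fB

variable {B : Set (IrrCharacter G)} {D : Subgroup G} {c : Set (IrrCharacter (Subgroup.centralizer (D : Set G)))}

open Classical in
theorem sum_sig_mul_sig_eq (w w' : D) :
    ∑ i : Orb D c, sig i w * sig i w' = ∑ γ : DSh D, ((γ.1 w : ℂˣ) : ℂ) * sig (orbOf γ : Orb D c) w' := by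
  have h1 : ∀ i : Orb D c, sig i w * sig i w' =
      ∑ γ : DSh D, if orbOf γ = i then ((γ.1 w : ℂˣ) : ℂ) * sig (orbOf γ : Orb D c) w' else 0 := by
    intro i
    rw [sig, Finset.sum_mul]
    refine Finset.sum_congr rfl fun γ _ => ?_
    by_cases h : orbOf γ = i
    · subst h
      simp
    · simp [h]
  simp_rw [h1]
  rw [Finset.sum_comm]
  refine Finset.sum_congr rfl fun γ _ => ?_
  rw [Finset.sum_ite_eq]
  simp

open Classical in
/-- The sum over the stabilizer. -/
theorem sum_smul_eq (L : Data p M B D c) (γ : DSh D) (w' : D) :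
    ∑ t : stabSub D c, (((t • γ : DSh D).1 w' : ℂˣ) : ℂ) =
      (Nat.card ((Subgroup.centralizer (D : Set G)).subgroupOf (stabSub D c)) : ℂ) * sig (orbOf γ : Orb D c) w' := by
  rw [← Finset.sum_fiberwise (s := Finset.univ) (g := fun t : stabSub D c => (t • γ : DSh D)), sig, Finset.mul_sum]
  refine Finset.sum_congr rfl fun γ' _ => ?_
  have h1 : ∀ t ∈ Finset.univ.filter (fun t : stabSub D c => (t • γ : DSh D) = γ'),
      (((t • γ : DSh D).1 w' : ℂˣ) : ℂ) = ((γ'.1 w' : ℂˣ) : ℂ) := by
    intro t ht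
    rw [(Finset.mem_filter.mp ht).2]
  rw [Finset.sum_congr rfl h1, Finset.sum_const, nsmul_eq_mul]
  by_cases h2 : orbOf γ' = (orbOf γ : Orb D c)
  · have h3 : ∃ t₀ : stabSub D c, t₀ • γ = γ' := by
      have h4 : (MulAction.orbitRel (stabSub D c) (DSh D)) γ' γ := Quotient.exact h2
      exact h4
    rw [card_filter_smul_eq γ γ' h3, if_pos h2, stabilizer_dsh L]
  · rw [if_neg h2, mul_zero]
    convert zero_mul _ using 2
    rw [Nat.cast_eq_zero, Finset.card_eq_zero]
    apply Finset.filter_eq_empty_iff.mpr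
    rintro t - rfl
    exact h2 (orbOf_smul t γ)

open Classical in
/-- **The scalar product of the orbit sums at two elements.** -/
theorem exists_sum_sig_mul_sig (L : Data p M B D c) {w w' : D} (hw : w ≠ 1) (hw' : w' ≠ 1) :
    ∃ n : ℤ, ∑ i : Orb D c, sig i w * sig i w' +
      ((Subgroup.centralizer (D : Set G)).relIndex (stabSub D c) : ℂ) = (Nat.card D : ℂ) * n := by
  have hD : ∀ u v : D, u * v = v * u := fun u v => Subtype.ext (L.hab _ u.2 _ v.2)
  set C : ℕ := Nat.card ((Subgroup.centralizer (D : Set G)).subgroupOf (stabSub D c)) with hC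
  set e : ℕ := (Subgroup.centralizer (D : Set G)).relIndex (stabSub D c) with he
  have hC0 : (C : ℂ) ≠ 0 := by exact_mod_cast Nat.card_pos.ne'
  have hq : Nat.card (D →* ℂˣ) = Nat.card D := (Cfsg.Agent.Lib.Glauberman.Act.dual_facts hD).2.1
  -- the sum over the nontrivial characters
  have hs : ∀ a : D, ∑ γ : DSh D, ((γ.1 a : ℂˣ) : ℂ) = (if a = 1 then (Nat.card D : ℂ) else 0) - 1 := by
    intro a
    have h1 := Cfsg.Agent.Lib.Glauberman.Act.sum_dual hD a
    rw [hq] at h1
    rw [Fintype.sum_eq_add_sum_subtype_ne _ (1 : D →* ℂˣ)] at h1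
    have h3 : ((((1 : D →* ℂˣ) a : ℂˣ)) : ℂ) = 1 := by simp
    rw [h3] at h1
    rw [← h1]
    ring
  -- the main identity
  have h1 : (C : ℂ) * ∑ i : Orb D c, sig i w * sig i w' =
      ∑ t : stabSub D c, ∑ γ : DSh D, ((γ.1 (w * Data.actD t⁻¹ w') : ℂˣ) : ℂ) := by
    rw [sum_sig_mul_sig_eq, Finset.mul_sum, Finset.sum_comm]
    refine Finset.sum_congr rfl fun γ _ => ?_
    rw [mul_left_comm, ← sum_smul_eq L γ w', Finset.mul_sum]
    refine Finset.sum_congr rfl fun t _ => ?_
    rw [map_mul]
    rfl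
  set N : ℕ := (Finset.univ.filter fun t : stabSub D c => w * Data.actD t⁻¹ w' = 1).card with hN
  have h2 : (C : ℂ) * ∑ i : Orb D c, sig i w * sig i w' =
      (Nat.card D : ℂ) * N - (Nat.card (stabSub D c) : ℂ) := by
    rw [h1]
    simp_rw [hs, Finset.sum_sub_distrib]
    rw [Finset.sum_ite, Finset.sum_const, Finset.sum_const_zero, add_zero, Finset.sum_const, Finset.card_univ,
      ← Nat.card_eq_fintype_card, nsmul_eq_mul, nsmul_eq_mul, mul_one, mul_comm, hN]
  have hT : Nat.card (stabSub D c) = C * e := (Subgroup.card_mul_index _).symm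
  -- the count
  have h3 : N = 0 ∨ N = C := by
    by_cases h : ∃ t₀ : stabSub D c, t₀ • (⟨w⁻¹, fun h => hw (inv_eq_one.mp h)⟩ : Sh D) = ⟨w', hw'⟩
    · right
      have h4 := card_filter_smul_eq (⟨w⁻¹, fun h => hw (inv_eq_one.mp h)⟩ : Sh D) ⟨w', hw'⟩ h
      rw [stabilizer_sh L] at h4
      rw [hN, hC, ← h4]
      congr 1
      ext t
      simp only [Finset.mem_filter, Finset.mem_univ, true_and]
      constructor
      · intro h5
        have h6 : Data.actD t⁻¹ w' = w⁻¹ := by
          rw [eq_inv_iff_mul_eq_one, hD]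
          exact h5
        apply Subtype.ext
        change Data.actD t w⁻¹ = w'
        rw [← h6]
        simp [map_inv]
      · intro h5
        have h6 : Data.actD t w⁻¹ = w' := congrArg Subtype.val h5
        rw [← h6, ← MulAut.mul_apply, ← map_mul]
        simp
    · left
      rw [hN, Finset.card_eq_zero]
      apply Finset.filter_eq_empty_iff.mpr
      intro t _ h5
      apply h
      refine ⟨t, ?_⟩
      have h6 : Data.actD t⁻¹ w' = w⁻¹ := by
        rw [eq_inv_iff_mul_eq_one, hD]
        exact h5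
      apply Subtype.ext
      change Data.actD t w⁻¹ = w'
      rw [← h6, ← MulAut.mul_apply, ← map_mul]
      simp
  rcases h3 with h3 | h3
  · refine ⟨0, ?_⟩
    rw [h3, hT] at h2
    push_cast at h2
    apply mul_left_cancel₀ hC0
    rw [mul_add, h2]
    push_cast
    ring
  · refine ⟨1, ?_⟩
    rw [h3, hT] at h2
    push_cast at h2
    apply mul_left_cancel₀ hC0
    rw [mul_add, h2]
    push_cast
    ring

end Col

end Cfsg.Agent.Lib.Dade.PA
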