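import Mathlib
import Cfsg.Agent.Lib.KleinBlock.Vanish
import Cfsg.Agent.Lib.BlockP.Stable

/-!
# A signed bijection compatible with the columns of the decomposition is a perfect isometry

A generalization of the assembly of `Cfsg.Agent.Lib.KleinBlock.Perfect`: complex-valued column vectors, an arbitrary
prime and an arbitrary power, and groups in different universes.
-/

set_option linter.unusedSectionVars false
set_option linter.style.haveILetI false
set_option autoImplicit false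

namespace Cfsg.Agent.Lib.Dade.Perf

open Cfsg
open Cfsg.Agent.Lib.Blocks.Local
open Cfsg.Agent.Lib.KleinBlock.Vanish
open Cfsg.Agent.Lib.BlockP.Stable

universe u v w

section Exp

variable {K : Type u} [Group K] {W : Type w}

/-- The expansion of a column of the character table on the column vectors. -/
def SingExp (M : Ideal AlgInt) (q : ℕ) (A : Set (IrrCharacter K)) (dA : W → A → ℂ) (g : K) : Prop :=
  ∃ (ι : Type u) (_ : Fintype ι) (w : ι → W) (F : ι → ℂ), (∀ i, MemLocalRing M (F i)) ∧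
    (∀ i, MemLocalRing M ((q : ℂ) * F i / (Nat.card (Subgroup.centralizer ({g} : Set K)) : ℂ))) ∧
    ∀ χ : A, ((χ : IrrCharacter K) : K → ℂ) g = ∑ i, dA (w i) χ * F i

end Exp

section Main

variable {G : Type u} {H : Type v} [Group G] [Group H] [Fintype G] [Fintype H] {M : Ideal AlgInt}
  {B : Set (IrrCharacter G)} {c : Set (IrrCharacter H)} [Fintype B] [Fintype c] {W : Type w} {p q : ℕ}

/-- The kernel. -/
noncomputable def kk (I : c ≃ B) (ε : c → ℤ) (g : G) (y : H) : ℂ :=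
  ∑ η : c, (ε η : ℂ) * ((I η : IrrCharacter G) : G → ℂ) g * ((η : IrrCharacter H) : H → ℂ) y

variable {I : c ≃ B} {ε : c → ℤ} {dB : W → B → ℂ} {dc : W → c → ℂ}

theorem kk_sing_reg (hc : ∀ u η, (ε η : ℂ) * dB u (I η) = dc u η)
    (hregC : ∀ u (y : H), ¬ p ∣ orderOf y → ∑ η : c, dc u η * ((η : IrrCharacter H) : H → ℂ) y = 0)
    {g : G} (hg : SingExp M q B dB g) {y : H} (hy : ¬ p ∣ orderOf y) : kk I ε g y = 0 := by
  obtain ⟨ι, _, w, F, -, -, hF⟩ := hg
  have e : kk I ε g y = ∑ i, F i * ∑ η : c, dc (w i) η * ((η : IrrCharacter H) : H → ℂ) y := by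
    rw [kk]
    simp only [hF, Finset.mul_sum, Finset.sum_mul]
    rw [Finset.sum_comm]
    refine Fintype.sum_congr _ _ fun i => Fintype.sum_congr _ _ fun η => ?_
    rw [← hc (w i) η]
    ring
  rw [e]
  exact Finset.sum_eq_zero fun i _ => by rw [hregC _ _ hy, mul_zero]

theorem kk_reg_sing (hε : ∀ η, ε η = 1 ∨ ε η = -1) (hc : ∀ u η, (ε η : ℂ) * dB u (I η) = dc u η)
    (hregB : ∀ u (g : G), ¬ p ∣ orderOf g → ∑ χ : B, dB u χ * ((χ : IrrCharacter G) : G → ℂ) g = 0)
    {y : H} (hy : SingExp M q c dc y) {g : G} (hg : ¬ p ∣ orderOf g) : kk I ε g y = 0 := by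
  obtain ⟨ι, _, w, F, -, -, hF⟩ := hy
  have e : kk I ε g y = ∑ i, F i * ∑ χ : B, dB (w i) χ * ((χ : IrrCharacter G) : G → ℂ) g := by
    rw [kk]
    simp only [hF, Finset.mul_sum]
    rw [Finset.sum_comm]
    refine Fintype.sum_congr _ _ fun i => ?_
    rw [← I.sum_comp]
    refine Fintype.sum_congr _ _ fun η => ?_
    rw [← hc (w i) η]
    have h1 : (ε η : ℂ) * (ε η : ℂ) = 1 := by
      rcases hε η with h | h <;> rw [h] <;> norm_num
    linear_combination (dB (w i) (I η) * ((I η : IrrCharacter G) : G → ℂ) g * F i) * h1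
  rw [e]
  exact Finset.sum_eq_zero fun i _ => by rw [hregB _ _ hg, mul_zero]

variable [M.IsPrime]

theorem kk_sing_sing (hc : ∀ u η, (ε η : ℂ) * dB u (I η) = dc u η)
    (hprod : ∀ u v, ∃ n : ℤ, ∑ η, dc u η * dc v η = (q : ℂ) * n)
    {g : G} (hg : SingExp M q B dB g) {y : H} (hy : SingExp M q c dc y) :
    MemLocalRing M (kk I ε g y / (Nat.card (Subgroup.centralizer ({g} : Set G)) : ℂ)) ∧
    MemLocalRing M (kk I ε g y / (Nat.card (Subgroup.centralizer ({y} : Set H)) : ℂ)) := by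
  obtain ⟨ι, _, w, F, hFl, hFd, hF⟩ := hg
  obtain ⟨ι', _, w', F', hFl', hFd', hF'⟩ := hy
  have e : kk I ε g y = ∑ i, ∑ j, F i * F' j * (∑ η, dc (w i) η * dc (w' j) η) := by
    have h1 : ∀ η : c, (ε η : ℂ) * ((I η : IrrCharacter G) : G → ℂ) g * ((η : IrrCharacter H) : H → ℂ) y =
        ∑ i, ∑ j, F i * F' j * (dc (w i) η * dc (w' j) η) := by
      intro η
      rw [hF, hF', mul_assoc, Finset.sum_mul_sum, Finset.mul_sum]
      refine Fintype.sum_congr _ _ fun i => ?_
      rw [Finset.mul_sum]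
      refine Fintype.sum_congr _ _ fun j => ?_
      rw [← hc (w i) η]
      ring
    rw [kk, Finset.sum_congr rfl fun η _ => h1 η, Finset.sum_comm]
    refine Fintype.sum_congr _ _ fun i => ?_
    rw [Finset.sum_comm]
    refine Fintype.sum_congr _ _ fun j => ?_
    rw [Finset.mul_sum]
  have hint : ∀ n : ℤ, MemLocalRing M (n : ℂ) := fun n => memLocalRing_of_isIntegral (isIntegral_intCast n)
  constructor
  · rw [e, Finset.sum_div]
    refine memLocalRing_sum _ _ fun i _ => ?_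
    rw [Finset.sum_div]
    refine memLocalRing_sum _ _ fun j _ => ?_
    obtain ⟨n, hn⟩ := hprod (w i) (w' j)
    rw [hn]
    have e2 : F i * F' j * ((q : ℂ) * n) / (Nat.card (Subgroup.centralizer ({g} : Set G)) : ℂ) =
        ((q : ℂ) * F i / (Nat.card (Subgroup.centralizer ({g} : Set G)) : ℂ)) * (F' j * (n : ℂ)) := by
      ring
    rw [e2]
    exact memLocalRing_mul (hFd i) (memLocalRing_mul (hFl' j) (hint n))
  · rw [e, Finset.sum_div]
    refine memLocalRing_sum _ _ fun i _ => ?_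
    rw [Finset.sum_div]
    refine memLocalRing_sum _ _ fun j _ => ?_
    obtain ⟨n, hn⟩ := hprod (w i) (w' j)
    rw [hn]
    have e2 : F i * F' j * ((q : ℂ) * n) / (Nat.card (Subgroup.centralizer ({y} : Set H)) : ℂ) =
        (F i * (n : ℂ)) * ((q : ℂ) * F' j / (Nat.card (Subgroup.centralizer ({y} : Set H)) : ℂ)) := by
      ring
    rw [e2]
    exact memLocalRing_mul (memLocalRing_mul (hFl i) (hint n)) (hFd' j)

theorem memLocalRing_sign {e : ℤ} : MemLocalRing M (e : ℂ) :=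
  memLocalRing_of_isIntegral (isIntegral_intCast e)

variable [Fintype (IrrCharacter G)] [Fintype (IrrCharacter H)] [Fact p.Prime]

/-- A combination of the members of a set, as a combination of all irreducible characters. -/
theorem sum_subtype_eq_sum {K : Type*} [Group K] [Fintype (IrrCharacter K)] {A : Set (IrrCharacter K)} [Fintype A]
    (f : A → ℂ) (v : IrrCharacter K → ℂ) :
    ∑ a : A, f a * v a = ∑ χ : IrrCharacter K, (by classical exact if h : χ ∈ A then f ⟨χ, h⟩ else 0) * v χ := by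
  classical
  symm
  rw [← Finset.sum_filter_of_ne (p := (· ∈ A))]
  · rw [Finset.sum_subtype (p := (· ∈ A)) _ (fun x => by simp)]
    refine Fintype.sum_congr _ _ fun a => ?_
    rw [dif_pos a.2]
  · intro χ _ hne
    by_contra h
    apply hne
    rw [dif_neg h, zero_mul]

/-- Regular elements. -/
theorem kk_reg_reg (hε : ∀ η, ε η = 1 ∨ ε η = -1) (hc : ∀ u η, (ε η : ℂ) * dB u (I η) = dc u η)
    (hregB : ∀ u (g : G), ¬ p ∣ orderOf g → ∑ χ : B, dB u χ * ((χ : IrrCharacter G) : G → ℂ) g = 0)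
    (hregC : ∀ u (y : H), ¬ p ∣ orderOf y → ∑ η : c, dc u η * ((η : IrrCharacter H) : H → ℂ) y = 0)
    (hsingB : ∀ g : G, p ∣ orderOf g → SingExp M q B dB g) (hsingC : ∀ y : H, p ∣ orderOf y → SingExp M q c dc y)
    (hM : IsPModular p M) {g : G} (hg : ¬ p ∣ orderOf g) {y : H} (hy : ¬ p ∣ orderOf y) :
    MemLocalRing M (kk I ε g y / (Nat.card (Subgroup.centralizer ({g} : Set G)) : ℂ)) ∧
    MemLocalRing M (kk I ε g y / (Nat.card (Subgroup.centralizer ({y} : Set H)) : ℂ)) := by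
  classical
  constructor
  · have h1 := memLocalRing_div_of_vanish (f := fun z => kk I ε z y) hM
      (fun χ => if h : χ ∈ B then (ε (I.symm ⟨χ, h⟩) : ℂ) * ((I.symm ⟨χ, h⟩ : IrrCharacter H) : H → ℂ) y else 0)
      ?_ ?_ (fun z hz => kk_sing_reg hc hregC (hsingB z hz) hy) hg
    · exact h1
    · intro χ
      split_ifs
      · exact memLocalRing_mul memLocalRing_sign (memLocalRing_of_isIntegral (isIntegral_irr _ _))
      · exact memLocalRing_zero
    · intro z
      have h2 := sum_subtype_eq_sum (A := B) (fun χ => (ε (I.symm χ) : ℂ) * ((I.symm χ : IrrCharacter H) : H → ℂ) y)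
        (fun χ => (χ : G → ℂ) z)
      refine Eq.trans ?_ h2
      rw [kk, ← I.sum_comp (fun a : B => (ε (I.symm a) : ℂ) * ((I.symm a : IrrCharacter H) : H → ℂ) y *
        ((a : IrrCharacter G) : G → ℂ) z)]
      refine Fintype.sum_congr _ _ fun η => ?_
      simp only [Equiv.symm_apply_apply]
      ring
  · have h1 := memLocalRing_div_of_vanish (f := fun z => kk I ε g z) hM
      (fun η => if h : η ∈ c then (ε ⟨η, h⟩ : ℂ) * ((I ⟨η, h⟩ : IrrCharacter G) : G → ℂ) g else 0)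
      ?_ ?_ (fun z hz => kk_reg_sing hε hc hregB (hsingC z hz) hg) hy
    · exact h1
    · intro η
      split_ifs
      · exact memLocalRing_mul memLocalRing_sign (memLocalRing_of_isIntegral (isIntegral_irr _ _))
      · exact memLocalRing_zero
    · intro z
      have h2 := sum_subtype_eq_sum (A := c) (fun η => (ε η : ℂ) * ((I η : IrrCharacter G) : G → ℂ) g)
        (fun η => (η : H → ℂ) z)
      exact h2

/-- The kernel of the extension of a signed bijection to all characters. -/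
theorem signedBijectionKernel_ext (I : c ≃ B) (ε : c → ℤ) (τ₀ : IrrCharacter G) [DecidablePred (· ∈ c)] :
    signedBijectionKernel c (fun η => if h : η ∈ c then (I ⟨η, h⟩ : IrrCharacter G) else τ₀)
      (fun η => if h : η ∈ c then ε ⟨η, h⟩ else 1) = kk I ε := by
  funext x y
  rw [signedBijectionKernel, ← finsum_subtype_eq_finsum_cond, finsum_eq_sum_of_fintype, kk]
  refine Fintype.sum_congr _ _ fun η => ?_
  simp only [dif_pos η.2]

/-- **A signed bijection compatible with column vectors is a perfect isometry.** -/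
theorem isPerfectIsometry_ext (hM : IsPModular p M) (τ₀ : IrrCharacter G)
    (hε : ∀ η, ε η = 1 ∨ ε η = -1) (hc : ∀ u η, (ε η : ℂ) * dB u (I η) = dc u η)
    (hregB : ∀ u (g : G), ¬ p ∣ orderOf g → ∑ χ : B, dB u χ * ((χ : IrrCharacter G) : G → ℂ) g = 0)
    (hregC : ∀ u (y : H), ¬ p ∣ orderOf y → ∑ η : c, dc u η * ((η : IrrCharacter H) : H → ℂ) y = 0)
    (hsingB : ∀ g : G, p ∣ orderOf g → SingExp M q B dB g) (hsingC : ∀ y : H, p ∣ orderOf y → SingExp M q c dc y)
    (hprod : ∀ u v, ∃ n : ℤ, ∑ η, dc u η * dc v η = (q : ℂ) * n) [DecidablePred (· ∈ c)] :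
    IsPerfectIsometry p M c B (fun η => if h : η ∈ c then (I ⟨η, h⟩ : IrrCharacter G) else τ₀)
      (fun η => if h : η ∈ c then ε ⟨η, h⟩ else 1) := by
  refine ⟨⟨?_, ?_, ?_⟩, ?_, ?_⟩
  · intro η hη
    simp only [dif_pos hη]
    exact (I ⟨η, hη⟩).2
  · intro η hη η' hη' he
    simp only [dif_pos hη, dif_pos hη'] at he
    have h1 := I.injective (Subtype.ext he)
    exact congrArg Subtype.val h1
  · intro χ hχ
    refine ⟨I.symm ⟨χ, hχ⟩, (I.symm ⟨χ, hχ⟩).2, ?_⟩
    simp only [dif_pos (I.symm ⟨χ, hχ⟩).2]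
    simp
  · intro η hη
    simp only [dif_pos hη]
    exact hε _
  · rw [signedBijectionKernel_ext]
    intro x y
    by_cases hx : p ∣ orderOf x
    · by_cases hy : p ∣ orderOf y
      · obtain ⟨h1, h2⟩ := kk_sing_sing hc hprod (hsingB x hx) (hsingC y hy)
        exact ⟨h1, h2, Or.inl (iff_of_false (not_not.mpr hx) (not_not.mpr hy))⟩
      · have h0 := kk_sing_reg hc hregC (I := I) (ε := ε) (hsingB x hx) hy
        rw [h0]
        simpa using (memLocalRing_zero : MemLocalRing M 0)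
    · by_cases hy : p ∣ orderOf y
      · have h0 := kk_reg_sing hε hc hregB (I := I) (ε := ε) (hsingC y hy) hx
        rw [h0]
        simpa using (memLocalRing_zero : MemLocalRing M 0)
      · obtain ⟨h1, h2⟩ := kk_reg_reg hε hc hregB hregC hsingB hsingC hM hx hy
        exact ⟨h1, h2, Or.inl (iff_of_true hx hy)⟩

end Main

section Deco

universe x x' y

/-- The decomposition data of a block: `ν` lists the non-exceptional characters, the exceptional ones have constant
column entries. -/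
structure Deco (p : ℕ) (M : Ideal AlgInt) {K : Type u} [Group K] (A : Set (IrrCharacter K)) [Fintype A]
    (q : ℕ) {W : Type w} {J : Type x} (sig : J → W → ℂ) (e : ℕ) where
  /-- The non-exceptional characters. -/
  ν : J → A
  hν : Function.Injective ν
  /-- The sign of the non-exceptional characters. -/
  ε₀ : ℤ
  hε₀ : ε₀ = 1 ∨ ε₀ = -1
  /-- The signs of the exceptional characters. -/
  a : A → ℤ
  ha : ∀ χ, χ ∉ Set.range ν → a χ = 1 ∨ a χ = -1
  /-- The column vectors. -/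
  dec : W → A → ℂ
  hX : ∀ u χ, χ ∉ Set.range ν → dec u χ = (a χ : ℂ)
  hY : ∀ u j, dec u (ν j) = (ε₀ : ℂ) * sig j u
  hreg : ∀ u (y : K), ¬ p ∣ orderOf y → ∑ χ : A, dec u χ * ((χ : IrrCharacter K) : K → ℂ) y = 0
  hsing : ∀ g : K, p ∣ orderOf g → SingExp M q A dec g
  hcol : ∀ u v, ∃ n : ℤ, ∑ χ, dec u χ * dec v χ = (q : ℂ) * n
  hcard : Nat.card {χ : A // χ ∉ Set.range ν} = e

/-- Extending a bijection of parts. -/
theorem exists_equiv_ext {α β : Type*} {J₁ : Type*} {J₂ : Type*} {ν₁ : J₁ → β} {ν₂ : J₂ → α}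
    (h₁ : Function.Injective ν₁) (h₂ : Function.Injective ν₂) (π : J₂ ≃ J₁)
    (hc : Nat.card {x : α // x ∉ Set.range ν₂} = Nat.card {x : β // x ∉ Set.range ν₁})
    [Finite α] [Finite β] :
    ∃ I : α ≃ β, (∀ j, I (ν₂ j) = ν₁ (π j)) ∧ ∀ x, x ∉ Set.range ν₂ → I x ∉ Set.range ν₁ := by
  classical
  haveI : Fintype {x : α // x ∉ Set.range ν₂} := Fintype.ofFinite _
  haveI : Fintype {x : β // x ∉ Set.range ν₁} := Fintype.ofFinite _
  obtain ⟨f⟩ : Nonempty ({x : α // x ∉ Set.range ν₂} ≃ {x : β // x ∉ Set.range ν₁}) :=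
    Fintype.card_eq.mp (by rw [← Nat.card_eq_fintype_card, ← Nat.card_eq_fintype_card, hc])
  let e₂ : J₂ ≃ Set.range ν₂ := Equiv.ofInjective ν₂ h₂
  let e₁ : J₁ ≃ Set.range ν₁ := Equiv.ofInjective ν₁ h₁
  let g : {x : α // x ∈ Set.range ν₂} ≃ {x : β // x ∈ Set.range ν₁} := (e₂.symm.trans π).trans e₁
  let I : α ≃ β := (Equiv.sumCompl (· ∈ Set.range ν₂)).symm.trans
    ((Equiv.sumCongr g f).trans (Equiv.sumCompl (· ∈ Set.range ν₁)))
  have hI1 : ∀ x (h : x ∈ Set.range ν₂), I x = (g ⟨x, h⟩ : β) := by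
    intro x h
    simp only [I, Equiv.trans_apply]
    rw [Equiv.sumCompl_symm_apply_of_pos h]
    rfl
  have hI2 : ∀ x (h : x ∉ Set.range ν₂), I x = (f ⟨x, h⟩ : β) := by
    intro x h
    simp only [I, Equiv.trans_apply]
    rw [Equiv.sumCompl_symm_apply_of_neg h]
    rfl
  refine ⟨I, fun j => ?_, fun x hx => ?_⟩
  · rw [hI1 _ ⟨j, rfl⟩]
    have h3 : e₂.symm ⟨ν₂ j, ⟨j, rfl⟩⟩ = j := by
      apply e₂.injective
      rw [Equiv.apply_symm_apply]
      rfl
    simp only [g, Equiv.trans_apply]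
    rw [h3]
    rfl
  · rw [hI2 x hx]
    exact (f ⟨x, hx⟩).2

variable {G : Type u} {H : Type v} [Group G] [Group H] [Fintype G] [Fintype H] {M : Ideal AlgInt}
  {B : Set (IrrCharacter G)} {c : Set (IrrCharacter H)} [Fintype B] [Fintype c]
  {W₁ : Type w} {W₂ : Type y} {J₁ : Type x} {J₂ : Type x'} {p q e : ℕ} [M.IsPrime]
  [Fintype (IrrCharacter G)] [Fintype (IrrCharacter H)] [Fact p.Prime]

/-- **Two decomposition data with the same orbit sums give a perfect isometry.** -/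
theorem Deco.perfect {sig₁ : J₁ → W₁ → ℂ} {sig₂ : J₂ → W₂ → ℂ} (S₁ : Deco p M B q sig₁ e) (S₂ : Deco p M c q sig₂ e)
    (φ : W₂ ≃ W₁) (π : J₂ ≃ J₁) (hsig : ∀ j u, sig₁ (π j) (φ u) = sig₂ j u) (hM : IsPModular p M)
    (τ₀ : IrrCharacter G) :
    ∃ (I : IrrCharacter H → IrrCharacter G) (ε : IrrCharacter H → ℤ), IsPerfectIsometry p M c B I ε ∧
      (∀ j, ε (S₂.ν j : IrrCharacter H) = S₁.ε₀ * S₂.ε₀) := by
  classical
  obtain ⟨I, hI1, hI2⟩ := exists_equiv_ext S₁.hν S₂.hν π (S₂.hcard.trans S₁.hcard.symm)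
  let ε : c → ℤ := fun η => if η ∈ Set.range S₂.ν then S₁.ε₀ * S₂.ε₀ else S₁.a (I η) * S₂.a η
  have h11 : S₁.ε₀ * S₁.ε₀ = 1 := by
    rcases S₁.hε₀ with h | h <;> rw [h] <;> norm_num
  have h22 : S₂.ε₀ * S₂.ε₀ = 1 := by
    rcases S₂.hε₀ with h | h <;> rw [h] <;> norm_num
  have hε : ∀ η, ε η = 1 ∨ ε η = -1 := by
    intro η
    simp only [ε]
    split_ifs with h
    · rcases S₁.hε₀ with h1 | h1 <;> rcases S₂.hε₀ with h2 | h2 <;> rw [h1, h2] <;> norm_num
    · rcases S₁.ha (I η) (hI2 η h) with h1 | h1 <;> rcases S₂.ha η h with h2 | h2 <;> rw [h1, h2] <;> norm_num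
  have hc : ∀ u η, (ε η : ℂ) * S₁.dec (φ u) (I η) = S₂.dec u η := by
    intro u η
    by_cases h : η ∈ Set.range S₂.ν
    · obtain ⟨j, rfl⟩ := h
      have h1 : ε (S₂.ν j) = S₁.ε₀ * S₂.ε₀ := if_pos ⟨j, rfl⟩
      rw [h1, hI1, S₁.hY, S₂.hY, hsig]
      have h2 : ((S₁.ε₀ : ℂ)) * (S₁.ε₀ : ℂ) = 1 := by exact_mod_cast h11
      push_cast
      linear_combination ((S₂.ε₀ : ℂ) * sig₂ j u) * h2
    · have h1 : ε η = S₁.a (I η) * S₂.a η := if_neg h
      rw [h1, S₁.hX _ _ (hI2 η h), S₂.hX _ _ h]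
      have h2 : ((S₁.a (I η) : ℤ) : ℂ) * (S₁.a (I η) : ℂ) = 1 := by
        rcases S₁.ha (I η) (hI2 η h) with h3 | h3 <;> rw [h3] <;> norm_num
      push_cast
      linear_combination ((S₂.a η : ℂ)) * h2
  have hP := isPerfectIsometry_ext (I := I) (ε := ε) (dB := fun u χ => S₁.dec (φ u) χ) (dc := S₂.dec) (q := q)
    hM τ₀ hε hc (fun u g hg => S₁.hreg _ g hg) S₂.hreg
    (fun g hg => by
      obtain ⟨ι, iι, w, F, h1, h2, h3⟩ := S₁.hsing g hg
      refine ⟨ι, iι, fun i => φ.symm (w i), F, h1, h2, fun χ => ?_⟩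
      rw [h3 χ]
      simp)
    S₂.hsing S₂.hcol
  refine ⟨_, _, hP, fun j => ?_⟩
  rw [dif_pos (S₂.ν j).2]
  exact if_pos ⟨j, rfl⟩

end Deco

end Cfsg.Agent.Lib.Dade.Perf
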