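import Mathlib
import Cfsg.Agent.Lib.Dade.Main
import Cfsg.Agent.Lib.Dade.PA
import Cfsg.Agent.Lib.Dade.Perf
import Cfsg.Agent.Lib.Blocks.NormSum

/-!
# The decomposition data of a block with a cyclic defect group
-/

set_option linter.unusedSectionVars false
set_option linter.style.haveILetI false
set_option autoImplicit false

namespace Cfsg.Agent.Lib.Dade.PB

open Cfsg MonoidAlgebra
open Cfsg.Agent.Lib.Blocks.Local Cfsg.Agent.Lib.Blocks.Central Cfsg.Agent.Lib.Blocks.Brauer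
open Cfsg.Agent.Lib.BlockH.Transport Cfsg.Agent.Lib.BlockH.Subpair Cfsg.Agent.Lib.BlockH.SubpairLE
open Cfsg.Agent.Lib.BlockH.ConjPair Cfsg.Agent.Lib.BlockH.Descent Cfsg.Agent.Lib.BlockH.MaxPair
open Cfsg.Agent.Lib.BlockH.InducedPairs Cfsg.Agent.Lib.BlockH.AbelianDefect
open Cfsg.Agent.Lib.BP.Cj Cfsg.Agent.Lib.BP.MIS
open Cfsg.Agent.Lib.BP.StarDefs Cfsg.Agent.Lib.BP.Star1
open Cfsg.Agent.Lib.BP.Star2 Cfsg.Agent.Lib.BP.Star3 Cfsg.Agent.Lib.BP.Nil1
open Cfsg.Agent.Lib.Contrib.Section Cfsg.Agent.Lib.Contrib.Proj Cfsg.Agent.Lib.Contrib.Family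
open Cfsg.Agent.Lib.KleinBlock.Vanish
open Cfsg.Agent.Lib.Char.Basic Cfsg.Agent.Lib.Char.Complete Cfsg.Agent.Lib.Char.Ortho Cfsg.Agent.Lib.Char.GenLattice
open Cfsg.Agent.Lib.Char.Degree
open Cfsg.Agent.Lib.Dade.Base Cfsg.Agent.Lib.Dade.Gen Cfsg.Agent.Lib.Dade.Loc Cfsg.Agent.Lib.Dade.Count
open Cfsg.Agent.Lib.Dade.Num Cfsg.Agent.Lib.Dade.PA Cfsg.Agent.Lib.Dade.Perf Cfsg.Agent.Lib.Dade.Main

universe u

variable {G : Type u} [Group G] [Fintype G] {p : ℕ} {M : Ideal AlgInt} [Fact p.Prime]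

attribute [local instance] fK fIrr fBl fDual fOrb fB

variable {B : Set (IrrCharacter G)} {D : Subgroup G} {c : Set (IrrCharacter (Subgroup.centralizer (D : Set G)))}

/-- The orders of the centralizers in the section. -/
theorem card_centralizer_cZ {r : G} {y : cZ r} (hr : ∃ k : ℕ, orderOf r = p ^ k) (hy : ¬ p ∣ orderOf y) :
    Nat.card (Subgroup.centralizer ({r * (y : G)} : Set G)) =
      Nat.card (Subgroup.centralizer ({y} : Set (cZ r))) := by
  have hy' : ¬ p ∣ orderOf (y : G) := by rwa [← Subgroup.orderOf_coe] at hy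
  have hc : Commute (y : G) r := mem_cZ.mp y.2
  have hpy : Cfsg.IsPPart p (r * (y : G)) r := ⟨y, rfl, hc.symm, hr, hy'⟩
  have hxz : r ∈ Subgroup.zpowers (r * (y : G)) := Cfsg.Agent.Lib.Blocks.PPart.isPPart_mem_zpowers hpy
  have hyz : (y : G) ∈ Subgroup.zpowers (r * (y : G)) := by
    have h1 := Subgroup.mul_mem _ (Subgroup.inv_mem _ hxz) (Subgroup.mem_zpowers (r * (y : G)))
    rwa [inv_mul_cancel_left] at h1
  have hcr : ∀ k : Subgroup.centralizer ({r * (y : G)} : Set G), Commute (k : G) r := by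
    intro k
    have h1 := Subgroup.mem_centralizer_singleton_iff.mp k.2
    obtain ⟨n, hn⟩ := Subgroup.mem_zpowers_iff.mp hxz
    have h2 := Commute.zpow_right (show Commute (k : G) (r * (y : G)) from h1) n
    rwa [hn] at h2
  have hcy : ∀ k : Subgroup.centralizer ({r * (y : G)} : Set G), Commute (k : G) (y : G) := by
    intro k
    have h1 := Subgroup.mem_centralizer_singleton_iff.mp k.2
    obtain ⟨n, hn⟩ := Subgroup.mem_zpowers_iff.mp hyz
    have h2 := Commute.zpow_right (show Commute (k : G) (r * (y : G)) from h1) n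
    rwa [hn] at h2
  refine Nat.card_congr ⟨fun k => ⟨⟨k, mem_cZ.mpr (hcr k)⟩, ?_⟩, fun k => ⟨k.1.1, ?_⟩, ?_, ?_⟩
  · rw [Subgroup.mem_centralizer_singleton_iff]
    exact Subtype.ext (hcy k).eq
  · rw [Subgroup.mem_centralizer_singleton_iff]
    have h1 : Commute (k.1 : G) r := mem_cZ.mp k.1.2
    have h2 : ((k.1 : cZ r) * y : cZ r) = y * (k.1 : cZ r) := Subgroup.mem_centralizer_singleton_iff.mp k.2
    have h3 : ((k.1 : G)) * (y : G) = (y : G) * (k.1 : G) := congrArg Subtype.val h2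
    calc ((k.1 : G)) * (r * (y : G)) = r * ((k.1 : G) * (y : G)) := by
          rw [← mul_assoc, h1.eq, mul_assoc]
      _ = _ := by rw [h3, mul_assoc]
  · intro k
    rfl
  · intro k
    rfl

/-- The defect of the block below the maximal pair. -/
theorem pow_blockDefect_bb (hM : IsPModular p M) (hmax : IsMaximalBrauerPair p M B D c)
    (hab : ∀ x ∈ D, ∀ y ∈ D, x * y = y * x) {w : G} (hw : w ∈ D) :
    p ^ blockDefect p (bb p M c w) = Nat.card D := by
  have hZD : Subgroup.zpowers w ≤ D := (Subgroup.zpowers_le).mpr hw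
  have hPC : D ≤ cZ w := fun a ha => mem_cZ.mpr (hab a ha w hw)
  have hX : (D.subgroupOf (cZ w)).map (cZ w).subtype = D := Subgroup.map_subgroupOf_eq_of_le hPC
  have hC : Subgroup.centralizer (D : Set G) ≤ cZ w := Subgroup.centralizer_le hZD
  obtain ⟨hb, hu⟩ := bb_spec hM hmax hw
  have hle := isUnder_one_iff.mp hu
  have hnor : IsNormalSubpair p M (Subgroup.zpowers w) (bb p M c w) D c :=
    isNormalSubpair_of_subpairLE hM ⟨hmax.1.1.1.to_le hZD, hb⟩ hle
      (fun x hx => Cfsg.Agent.Lib.BlockH.Sylow.centralizer_le_normalizer'' (Subgroup.zpowers w) (hPC hx))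
  have hm := isMaximal_desc hM hmax hab hZD hnor hPC hX hC
  have hd := isDefectGroup_of_isMaximal hM hm
  have h1 := Cfsg.Agent.Lib.Blocks.Inducing.card_eq_pow_blockDefect hM hb hd
  rw [← h1]
  exact Nat.card_congr (Subgroup.subgroupOfEquivOfLe hPC).toEquiv

/-- **Integrality of the sections.** -/
theorem mem_sec (hM : IsPModular p M) (hmax : IsMaximalBrauerPair p M B D c)
    (hab : ∀ x ∈ D, ∀ y ∈ D, x * y = y * x) (χ₀ : IrrCharacter G) {w : G} (hw : w ∈ D) {y : G} (hy : y ∈ cZ w)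
    (hyp : ¬ p ∣ orderOf y) :
    MemLocalRing M (Fs (χ₀ : G → ℂ) w (bb p M c w) y) ∧
      MemLocalRing M ((Nat.card D : ℂ) * Fs (χ₀ : G → ℂ) w (bb p M c w) y /
        (Nat.card (Subgroup.centralizer ({w * y} : Set G)) : ℂ)) := by
  classical
  haveI := isPrime_of_pModular hM
  haveI := Cfsg.Agent.Lib.Char.Ortho.finite_irrCharacter (G := G)
  letI := Fintype.ofFinite (IrrCharacter G)
  have hwo : ∃ k : ℕ, orderOf w = p ^ k := by
    obtain ⟨k, hk⟩ := (IsPGroup.iff_orderOf.mp hmax.1.1.1) ⟨w, hw⟩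
    exact ⟨k, by rwa [Subgroup.orderOf_mk] at hk⟩
  set s : cZ w := ⟨y, hy⟩ with hs
  have hsr : ¬ p ∣ orderOf s := by rwa [hs, Subgroup.orderOf_mk]
  have hb := (bb_spec hM hmax hw).1
  have hl : ∀ ξ : IrrCharacter (cZ w), MemLocalRing M (classInner (fun k : cZ w => (χ₀ : G → ℂ) (w * k)) (ξ : cZ w → ℂ)) :=
    fun ξ => memLocalRing_shift_sub (cZ w) (isCharacter_of_isIrrCharacter χ₀.2) (self_mem_cZ w)
      (fun g => (mem_cZ.mp g.2).symm.eq) ξ
  have hF : Fs (χ₀ : G → ℂ) w (bb p M c w) y = PP p (bb p M c w) (fun k : cZ w => (χ₀ : G → ℂ) (w * k)) s := by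
    have h1 := Fs_eq_blockPart (class_irr χ₀) w (bb p M c w) s
    rw [PP, Cfsg.Agent.Lib.BlockH.Regular.pRegularPart_apply, if_pos (show IsPRegular p s from hsr)]
    exact h1
  rw [hF]
  refine ⟨memLocalRing_PP hl s, ?_⟩
  have h2 := memLocalRing_mul_PP_div hM hb hl hsr
  rw [pow_blockDefect_bb hM hmax hab hw, ← card_centralizer_cZ hwo hsr] at h2
  exact h2

/-- The centralizers of conjugate elements have the same order. -/
theorem card_centralizer_conj' (t g : G) :
    Nat.card (Subgroup.centralizer ({t * g * t⁻¹} : Set G)) = Nat.card (Subgroup.centralizer ({g} : Set G)) := by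
  refine Nat.card_congr ⟨fun k => ⟨t⁻¹ * k * t, ?_⟩, fun k => ⟨t * k * t⁻¹, ?_⟩, ?_, ?_⟩
  · rw [Subgroup.mem_centralizer_singleton_iff]
    have h1 : (k : G) * (t * g * t⁻¹) = (t * g * t⁻¹) * k := Subgroup.mem_centralizer_singleton_iff.mp k.2
    calc t⁻¹ * k * t * g = t⁻¹ * ((k : G) * (t * g * t⁻¹)) * t := by group
      _ = t⁻¹ * ((t * g * t⁻¹) * k) * t := by rw [h1]
      _ = _ := by group
  · rw [Subgroup.mem_centralizer_singleton_iff]
    have h1 : (k : G) * g = g * k := Subgroup.mem_centralizer_singleton_iff.mp k.2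
    calc t * k * t⁻¹ * (t * g * t⁻¹) = t * ((k : G) * g) * t⁻¹ := by group
      _ = t * (g * k) * t⁻¹ := by rw [h1]
      _ = _ := by group
  · intro k
    apply Subtype.ext
    simp [mul_assoc]
  · intro k
    apply Subtype.ext
    simp [mul_assoc]

open Classical in
/-- **The expansion of the columns at singular elements.** -/
theorem singExp_of_sec (hM : IsPModular p M) (hmax : IsMaximalBrauerPair p M B D c)
    (dec : Sh D → B → ℂ) (Ξ : G → G → ℂ)
    (hsec : ∀ χ : B, ∀ w (hw : w ∈ D) (h1 : w ≠ 1), ∀ y ∈ cZ w, ¬ p ∣ orderOf y →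
      Fs ((χ : IrrCharacter G) : G → ℂ) w (bb p M c w) y = dec ⟨⟨w, hw⟩, fun h => h1 (congrArg Subtype.val h)⟩ χ * Ξ w y)
    (hl1 : ∀ w ∈ D, w ≠ 1 → ∀ y ∈ cZ w, ¬ p ∣ orderOf y → MemLocalRing M (Ξ w y))
    (hl2 : ∀ w ∈ D, w ≠ 1 → ∀ y ∈ cZ w, ¬ p ∣ orderOf y → MemLocalRing M ((Nat.card D : ℂ) * Ξ w y /
        (Nat.card (Subgroup.centralizer ({w * y} : Set G)) : ℂ)))
    {g : G} (hg : p ∣ orderOf g) : SingExp M (Nat.card D) B dec g := by
  haveI := isPrime_of_pModular hM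
  obtain ⟨r, y, rfl, hr, hcm, hy⟩ := exists_sec (p := p) g
  have hr1 : r ≠ 1 := by
    rintro rfl
    rw [one_mul] at hg
    exact hy hg
  have hyc : y ∈ cZ r := mem_cZ.mpr hcm
  let ι := {b : {b : Set (IrrCharacter (cZ r)) // IsPBlock M b} // ∃ t, IsUnder p M c r b.1 t}
  choose t ht using fun i : ι => i.2
  have hwD : ∀ i, t i * r * (t i)⁻¹ ∈ D := fun i => conj_mem_of_isUnder (ht i)
  have hw1 : ∀ i, t i * r * (t i)⁻¹ ≠ 1 := by
    intro i h
    apply hr1
    have h2 : r = (t i)⁻¹ * (t i * r * (t i)⁻¹) * t i := by group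
    rw [h2, h]
    group
  have hyc' : ∀ i, t i * y * (t i)⁻¹ ∈ cZ (t i * r * (t i)⁻¹) := fun i => mem_cZ_conj.mpr hyc
  have hyp' : ∀ i, ¬ p ∣ orderOf (t i * y * (t i)⁻¹) := fun i => by rwa [orderOf_conj']
  refine ⟨ι, inferInstance, fun i => ⟨⟨_, hwD i⟩, fun h => hw1 i (congrArg Subtype.val h)⟩,
    fun i => Ξ (t i * r * (t i)⁻¹) (t i * y * (t i)⁻¹), fun i => hl1 _ (hwD i) (hw1 i) _ (hyc' i) (hyp' i), fun i => ?_,
    fun χ => ?_⟩
  · have h1 := hl2 _ (hwD i) (hw1 i) _ (hyc' i) (hyp' i)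
    have h2 : t i * r * (t i)⁻¹ * (t i * y * (t i)⁻¹) = t i * (r * y) * (t i)⁻¹ := by group
    rw [h2, card_centralizer_conj'] at h1
    exact h1
  · rw [← sum_Fs (M := M) ((χ : IrrCharacter G) : G → ℂ) r y]
    rw [← Finset.sum_filter_of_ne (p := fun b : {b : Set (IrrCharacter (cZ r)) // IsPBlock M b} =>
      ∃ t, IsUnder p M c r b.1 t)]
    · rw [Finset.sum_subtype (p := fun b : {b : Set (IrrCharacter (cZ r)) // IsPBlock M b} =>
        ∃ t, IsUnder p M c r b.1 t) _ (fun x => by simp)]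
      refine Finset.sum_congr rfl fun i _ => ?_
      have h1 : IsUnder p M c (t i * r * (t i)⁻¹) (cjBl (t i) r i.1.1) 1 := by
        rw [isUnder_cjBl, one_mul]
        exact ht i
      have h2 := bb_eq hM hmax (isPBlock_cjBl i.1.2) h1
      have h3 := Fs_cjBl (class_irr (χ : IrrCharacter G)) (t i) r y i.1.1
      rw [← h3, ← h2]
      exact hsec χ _ (hwD i) (hw1 i) _ (hyc' i) (hyp' i)
    · intro b _ hne
      by_contra hn
      exact hne (Fs_eq_zero_of_not_under hM hmax χ.2 hr b.2 hn hyc hy)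

open Classical in
/-- **The decomposition data of a block with a cyclic defect group.** -/
theorem exists_deco (hM : IsPModular p M) (hmax : IsMaximalBrauerPair p M B D c) (hD1 : D ≠ ⊥) (hcyc : IsCyclic D) :
    Nonempty (Deco p M B (Nat.card D) (fun (i : Orb D c) (u : Sh D) => sig i u.1)
      ((Subgroup.centralizer (D : Set G)).relIndex (stabSub D c))) := by
  obtain ⟨L⟩ := exists_loc hM hmax hD1 hcyc
  haveI := isPrime_of_pModular hM
  haveI := Cfsg.Agent.Lib.Char.Ortho.finite_irrCharacter (G := G)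
  letI := Fintype.ofFinite (IrrCharacter G)
  have hB : IsPBlock M B := hmax.1.2.1
  obtain ⟨n, Ξ, hcard, hcount, hgram, hreg, hsec⟩ := exists_numeric_orb hM hmax hD1 hcyc
  have hle := Cfsg.Agent.Lib.Dade.Loc.relIndex_le_blockRank hM hmax hD1 hcyc
  set e := (Subgroup.centralizer (D : Set G)).relIndex (stabSub D c) with he
  have hq : 1 < Nat.card D := (Subgroup.one_lt_card_iff_ne_bot D).mpr hD1
  have he0 : 0 < e := by
    rw [he, Subgroup.relIndex]
    exact Nat.pos_of_ne_zero Subgroup.index_ne_zero_of_finite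
  have hI : 0 < Fintype.card (Orb D c) := by
    apply Nat.pos_of_ne_zero
    intro h0
    rw [h0, mul_zero] at hcard
    omega
  haveI : Nonempty (Orb D c) := Fintype.card_pos_iff.mp hI
  have hreg1 : ¬ p ∣ orderOf (1 : G) := by
    rw [orderOf_one]
    exact fun h => (Fact.out : p.Prime).one_lt.ne' (Nat.dvd_one.mp h)
  have hdeg : ∀ i, ∑ χ : B, n χ i * ((charDegree ((χ : IrrCharacter G) : G → ℂ) : ℕ) : ℤ) = 0 := by
    intro i
    have h1 := hreg i 1 hreg1
    have h2 : ∀ χ : B, (((χ : IrrCharacter G) : G → ℂ) 1) = ((charDegree ((χ : IrrCharacter G) : G → ℂ) : ℕ) : ℂ) :=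
      fun χ => Cfsg.Agent.Lib.Blocks.Heights.irr_one_eq χ.1
    simp only [h2] at h1
    exact_mod_cast h1
  have hcov : ∀ χ : B, ∃ i, n χ i ≠ 0 := by
    by_contra hcon
    push Not at hcon
    obtain ⟨χ, hχ⟩ := hcon
    have hv := vanish_of_sec hM hmax (θ := ((χ : IrrCharacter G) : G → ℂ)) (fun a b => class_irr χ.1 _ _)
      (fun r c' hr hc' hn y hy hyp => Fs_eq_zero_of_not_under hM hmax χ.2 hr hc' hn hy hyp)
      (fun w hw h1 y hy hyp => by
        rw [hsec χ.1 w hw h1 y hy hyp]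
        simp [hχ])
    have hs := singleton_of_vanish hM hB χ.2 hv
    have hc1 : Nat.card B = 1 := by
      rw [hs]
      simp
    omega
  have hk : e + Fintype.card (Orb D c) ≤ Fintype.card B := by
    have h2 : Nat.card B = Fintype.card B := Nat.card_eq_fintype_card
    omega
  obtain ⟨hk', ν, ε, a, hinj, hε, ha, hA, hν⟩ := Cfsg.Agent.Lib.Dade.Shape.shape (fun (χ : B) i => n χ i) e
    (fun χ : B => ((charDegree ((χ : IrrCharacter G) : G → ℂ) : ℕ) : ℤ))
    (fun χ => by exact_mod_cast charDegree_pos χ.1.2) hgram hdeg hcov hk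
  -- the column vectors
  let dec : Sh D → B → ℂ := fun u χ => ∑ i, (n χ i : ℂ) * sig i u.1
  have hdX : ∀ u χ, χ ∉ Set.range ν → dec u χ = ((-a χ : ℤ) : ℂ) := by
    intro u χ hχ
    have h1 : ∀ i : Orb D c, (n χ i : ℂ) * sig i u.1 = (a χ : ℂ) * sig i u.1 := by
      intro i
      rw [hA i χ hχ]
    simp only [dec]
    rw [Finset.sum_congr rfl fun i _ => h1 i, ← Finset.mul_sum, sum_sig L u.2]
    push_cast
    ring
  have hdY : ∀ u j, dec u (ν j) = (ε : ℂ) * sig j u.1 := by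
    intro u j
    simp only [dec]
    rw [Finset.sum_eq_single j]
    · rw [hν, if_pos rfl]
    · intro i _ hi
      rw [hν, if_neg (Ne.symm hi)]
      simp
    · intro h0
      exact absurd (Finset.mem_univ _) h0
  have haa : ∀ χ, χ ∉ Set.range ν → ((-a χ : ℤ) : ℂ) * ((-a χ : ℤ) : ℂ) = 1 := by
    intro χ hχ
    rcases ha χ hχ with h | h <;> rw [h] <;> norm_num
  obtain ⟨χ₀, hχ₀⟩ : ∃ χ₀ : B, χ₀ ∉ Set.range ν := by
    by_contra hcon
    push Not at hcon
    have h1 : Function.Surjective ν := hcon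
    have h2 := Fintype.card_of_bijective ⟨hinj, h1⟩
    omega
  have hab := hab_of_cyclic hcyc
  have hΞ : ∀ w (hw : w ∈ D) (h1 : w ≠ 1), ∀ y ∈ cZ w, ¬ p ∣ orderOf y →
      Ξ w y = ((-a χ₀ : ℤ) : ℂ) * Fs ((χ₀ : IrrCharacter G) : G → ℂ) w (bb p M c w) y := by
    intro w hw h1 y hy hyp
    have h2 := hsec χ₀.1 w hw h1 y hy hyp
    have h3 := hdX ⟨⟨w, hw⟩, fun h => h1 (congrArg Subtype.val h)⟩ χ₀ hχ₀
    simp only [dec] at h3
    rw [h2, h3]
    linear_combination (-Ξ w y) * haa χ₀ hχ₀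
  refine ⟨{ ν := ν, hν := hinj, ε₀ := ε, hε₀ := hε, a := fun χ => -a χ, ha := ?_, dec := dec, hX := hdX, hY := hdY,
            hreg := ?_, hsing := ?_, hcol := ?_, hcard := ?_ }⟩
  · intro χ hχ
    rcases ha χ hχ with h | h
    · right
      rw [h]
    · left
      rw [h]
      norm_num
  · intro u y hy
    simp only [dec]
    simp only [Finset.sum_mul]
    rw [Finset.sum_comm]
    refine Finset.sum_eq_zero fun i _ => ?_
    have h1 := hreg i y hy
    have h2 : ∑ χ : B, (n χ i : ℂ) * sig i u.1 * ((χ : IrrCharacter G) : G → ℂ) y =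
        sig i u.1 * ∑ χ : B, (n χ i : ℂ) * ((χ : IrrCharacter G) : G → ℂ) y := by
      rw [Finset.mul_sum]
      refine Finset.sum_congr rfl fun χ _ => ?_
      ring
    rw [h2, h1, mul_zero]
  · intro g hg
    refine singExp_of_sec hM hmax dec Ξ ?_ ?_ ?_ hg
    · intro χ w hw h1 y hy hyp
      exact hsec χ.1 w hw h1 y hy hyp
    · intro w hw h1 y hy hyp
      rw [hΞ w hw h1 y hy hyp]
      exact memLocalRing_mul (memLocalRing_sign) (mem_sec hM hmax hab χ₀.1 hw hy hyp).1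
    · intro w hw h1 y hy hyp
      rw [hΞ w hw h1 y hy hyp]
      have h2 := (mem_sec hM hmax hab χ₀.1 hw hy hyp).2
      have h3 : (Nat.card D : ℂ) * (((-a χ₀ : ℤ) : ℂ) * Fs ((χ₀ : IrrCharacter G) : G → ℂ) w (bb p M c w) y) /
          (Nat.card (Subgroup.centralizer ({w * y} : Set G)) : ℂ) = ((-a χ₀ : ℤ) : ℂ) *
          ((Nat.card D : ℂ) * Fs ((χ₀ : IrrCharacter G) : G → ℂ) w (bb p M c w) y /
          (Nat.card (Subgroup.centralizer ({w * y} : Set G)) : ℂ)) := by ring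
      rw [h3]
      exact memLocalRing_mul memLocalRing_sign h2
  · intro u v
    obtain ⟨m, hm⟩ := exists_sum_sig_mul_sig L u.2 v.2
    refine ⟨m, ?_⟩
    rw [← hm]
    simp only [dec]
    have h1 : ∀ χ : B, (∑ i, (n χ i : ℂ) * sig i u.1) * (∑ j, (n χ j : ℂ) * sig j v.1) =
        ∑ i, ∑ j, ((n χ i * n χ j : ℤ) : ℂ) * (sig i u.1 * sig j v.1) := by
      intro χ
      rw [Finset.sum_mul_sum]
      refine Finset.sum_congr rfl fun i _ => Finset.sum_congr rfl fun j _ => ?_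
      push_cast
      ring
    simp_rw [h1]
    rw [Finset.sum_comm]
    have h2 : ∀ i : Orb D c, (∑ χ : B, ∑ j, ((n χ i * n χ j : ℤ) : ℂ) * (sig i u.1 * sig j v.1)) =
        (e : ℂ) * sig i u.1 * (∑ j : Orb D c, sig j v.1) + sig i u.1 * sig i v.1 := by
      intro i
      rw [Finset.sum_comm]
      have h3 : ∀ j : Orb D c, (∑ χ : B, ((n χ i * n χ j : ℤ) : ℂ) * (sig i u.1 * sig j v.1)) =
          ((e : ℂ) + if i = j then 1 else 0) * (sig i u.1 * sig j v.1) := by
        intro j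
        rw [← Finset.sum_mul]
        congr 1
        have h4 := hgram i j
        have h5 : ((∑ χ : B, n χ i * n χ j : ℤ) : ℂ) = (((e : ℤ) + if i = j then 1 else 0 : ℤ) : ℂ) := by
          rw [h4]
        push_cast at h5 ⊢
        exact h5
      simp_rw [h3, add_mul, Finset.sum_add_distrib]
      congr 1
      · rw [Finset.mul_sum]
        refine Finset.sum_congr rfl fun j _ => ?_
        ring
      · rw [Finset.sum_eq_single i]
        · rw [if_pos rfl, one_mul]
        · intro j _ hj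
          rw [if_neg (Ne.symm hj), zero_mul]
        · intro h0
          exact absurd (Finset.mem_univ _) h0
    simp_rw [h2, Finset.sum_add_distrib]
    rw [sum_sig L v.2, add_comm]
    congr 1
    have h3 : ∑ i : Orb D c, (e : ℂ) * sig i u.1 * (-1) = -((e : ℂ) * ∑ i : Orb D c, sig i u.1) := by
      rw [Finset.mul_sum, ← Finset.sum_neg_distrib]
      refine Finset.sum_congr rfl fun i _ => ?_
      ring
    rw [h3, sum_sig L u.2]
    ring
  · rw [Nat.card_eq_fintype_card, Fintype.card_subtype_compl]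
    have h1 : Fintype.card {x : B // x ∈ Set.range ν} = Fintype.card (Orb D c) := by
      rw [← Set.card_range_of_injective hinj]
    rw [h1, hk']
    omega

end Cfsg.Agent.Lib.Dade.PB
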