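import Mathlib
import Cfsg.Agent.Lib.Dade.PB

/-!
# The perfect isometry between a block with cyclic defect group and its correspondent in `N_G(Z)`
-/

set_option linter.unusedSectionVars false
set_option linter.style.haveILetI false
set_option autoImplicit false

namespace Cfsg.Agent.Lib.Dade.PC

open Cfsg MonoidAlgebra
open Cfsg.Agent.Lib.Blocks.Local Cfsg.Agent.Lib.Blocks.Central Cfsg.Agent.Lib.Blocks.Brauer
open Cfsg.Agent.Lib.BlockH.Transport Cfsg.Agent.Lib.BlockH.Subpair Cfsg.Agent.Lib.BlockH.SubpairLE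
open Cfsg.Agent.Lib.BlockH.ConjPair Cfsg.Agent.Lib.BlockH.Descent Cfsg.Agent.Lib.BlockH.MaxPair
open Cfsg.Agent.Lib.BlockH.InducedPairs
open Cfsg.Agent.Lib.BP.StarDefs
open Cfsg.Agent.Lib.Dade.Base Cfsg.Agent.Lib.Dade.Loc Cfsg.Agent.Lib.Dade.Count
open Cfsg.Agent.Lib.Dade.Num Cfsg.Agent.Lib.Dade.Perf Cfsg.Agent.Lib.Dade.PB

universe u v

section OrbEquiv

variable {G₁ : Type u} {G₂ : Type v} [Group G₁] [Group G₂] [Fintype G₁] [Fintype G₂]
  {D₁ : Subgroup G₁} {D₂ : Subgroup G₂}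
  {c₁ : Set (IrrCharacter (Subgroup.centralizer (D₁ : Set G₁)))}
  {c₂ : Set (IrrCharacter (Subgroup.centralizer (D₂ : Set G₂)))}

attribute [local instance] fK fIrr fBl fDual fOrb fB

open Classical in
/-- **The orbits of the stabilizers on the duals correspond.** -/
theorem exists_orb_equiv (φ : D₂ ≃* D₁)
    (h21 : ∀ t₂ : stabSub D₂ c₂, ∃ t₁ : stabSub D₁ c₁, ∀ w : D₂, φ (Data.actD t₂ w) = Data.actD t₁ (φ w))
    (h12 : ∀ t₁ : stabSub D₁ c₁, ∃ t₂ : stabSub D₂ c₂, ∀ w : D₂, φ (Data.actD t₂ w) = Data.actD t₁ (φ w)) :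
    ∃ π : Orb D₂ c₂ ≃ Orb D₁ c₁, ∀ j (u : D₂), sig (π j) (φ u) = sig j u := by
  let E : DSh D₂ ≃ DSh D₁ :=
    { toFun := fun γ => ⟨γ.1.comp φ.symm.toMonoidHom, fun h => γ.2 (by
        refine MonoidHom.ext fun w => ?_
        have h2 := DFunLike.congr_fun h (φ w)
        simpa using h2)⟩
      invFun := fun γ => ⟨γ.1.comp φ.toMonoidHom, fun h => γ.2 (by
        refine MonoidHom.ext fun w => ?_
        have h2 := DFunLike.congr_fun h (φ.symm w)
        simpa using h2)⟩
      left_inv := fun γ => by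
        apply Subtype.ext
        refine MonoidHom.ext fun w => ?_
        simp
      right_inv := fun γ => by
        apply Subtype.ext
        refine MonoidHom.ext fun w => ?_
        simp }
  have hE : ∀ (t₂ : stabSub D₂ c₂) (t₁ : stabSub D₁ c₁), (∀ w : D₂, φ (Data.actD t₂ w) = Data.actD t₁ (φ w)) →
      ∀ γ, E (t₂ • γ) = t₁ • E γ := by
    intro t₂ t₁ h γ
    apply Subtype.ext
    refine MonoidHom.ext fun x => ?_
    change γ.1 (Data.actD t₂⁻¹ (φ.symm x)) = γ.1 (φ.symm (Data.actD t₁⁻¹ x))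
    congr 1
    set v := Data.actD t₂⁻¹ (φ.symm x) with hv
    have h1 : Data.actD t₂ v = φ.symm x := by
      rw [hv, ← MulAut.mul_apply, ← map_mul]
      simp
    have h2 := h v
    rw [h1, MulEquiv.apply_symm_apply] at h2
    rw [h2, ← MulAut.mul_apply, ← map_mul]
    simp
  have hrel : ∀ a b : DSh D₂, (MulAction.orbitRel (stabSub D₂ c₂) (DSh D₂)) a b ↔
      (MulAction.orbitRel (stabSub D₁ c₁) (DSh D₁)) (E a) (E b) := by
    intro a b
    constructor
    · rintro ⟨t₂, rfl⟩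
      obtain ⟨t₁, ht⟩ := h21 t₂
      exact ⟨t₁, (hE t₂ t₁ ht b).symm⟩
    · rintro ⟨t₁, h⟩
      obtain ⟨t₂, ht⟩ := h12 t₁
      refine ⟨t₂, E.injective ?_⟩
      rw [hE t₂ t₁ ht b]
      exact h
  let π : Orb D₂ c₂ ≃ Orb D₁ c₁ := Quotient.congr E hrel
  have hπ : ∀ γ : DSh D₂, π (orbOf γ) = orbOf (E γ) := fun γ => rfl
  refine ⟨π, fun j u => ?_⟩
  rw [sig, sig, ← Equiv.sum_comp E]
  refine Finset.sum_congr rfl fun γ _ => ?_
  have h1 : orbOf (E γ) = π j ↔ orbOf γ = j := by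
    rw [← hπ]
    exact π.injective.eq_iff
  have h2 : ((E γ).1 (φ u) : ℂˣ) = γ.1 u := by
    change γ.1 (φ.symm (φ u)) = γ.1 u
    simp
  simp only [h1, h2]

end OrbEquiv

section Main

variable {G : Type u} [Group G] [Fintype G] {p : ℕ} {M : Ideal AlgInt} [Fact p.Prime]

attribute [local instance] fK fIrr fBl fDual fOrb fB

omit [Fintype G] in
theorem mem_stabSub_desc' [Fintype G] {L : Subgroup G} {X' : Subgroup L} {X : Subgroup G} (h : X'.map L.subtype = X)
    (hC : Subgroup.centralizer (X : Set G) ≤ L) {f : Set (IrrCharacter (Subgroup.centralizer (X' : Set L)))} {u : L} :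
    (u : G) ∈ stabSub X (blockMap (descEquiv h hC) f) ↔ u ∈ stabSub X' f := by
  constructor
  · rintro ⟨h1, h2⟩
    have hu := (normalizer_iff_of_map h).mp h1
    exact ⟨hu, (stabilizesBlock_desc h hC hu).mp h2⟩
  · rintro ⟨h1, h2⟩
    exact ⟨(normalizer_iff_of_map h).mpr h1, (stabilizesBlock_desc h hC h1).mpr h2⟩

/-- Subgroups of a cyclic subgroup are characteristic. -/
theorem normalizer_le_normalizer_of_cyclic {P Z : Subgroup G} (hcyc : IsCyclic P) (hZ : Z ≤ P) :
    Subgroup.normalizer (P : Set G) ≤ Subgroup.normalizer (Z : Set G) := by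
  intro g hg
  have hle : Z.map (MulAut.conj g).toMonoidHom ≤ P := by
    rintro _ ⟨z, hz, rfl⟩
    exact (Subgroup.mem_normalizer_iff.mp hg z).mp (hZ hz)
  have hc : Nat.card (Z.map (MulAut.conj g).toMonoidHom : Subgroup G) = Nat.card Z :=
    Subgroup.card_map_of_injective (MulEquiv.injective _)
  have hsub : (Z.map (MulAut.conj g).toMonoidHom).subgroupOf P = Z.subgroupOf P := by
    apply eq_of_card_eq_of_cyclic
    rw [Nat.card_congr (Subgroup.subgroupOfEquivOfLe hle).toEquiv,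
      Nat.card_congr (Subgroup.subgroupOfEquivOfLe hZ).toEquiv, hc]
  have hZeq : Z.map (MulAut.conj g).toMonoidHom = Z := by
    rw [← Subgroup.map_subgroupOf_eq_of_le hle, hsub, Subgroup.map_subgroupOf_eq_of_le hZ]
  rw [Subgroup.mem_normalizer_iff]
  intro z
  constructor
  · intro hz
    rw [← hZeq]
    exact ⟨z, hz, rfl⟩
  · intro hz
    have hz' : g * z * g⁻¹ ∈ Z.map (MulAut.conj g).toMonoidHom := by
      rw [hZeq]
      exact hz
    obtain ⟨z', hz'm, hz'e⟩ := hz'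
    have : z' = z := by
      have h1 : g * z' * g⁻¹ = g * z * g⁻¹ := hz'e
      exact mul_left_cancel (mul_right_cancel h1)
    rwa [← this]

/-- **The perfect isometry with the correspondent in the normalizer of the subgroup of order `p`.** -/
theorem main_normalizer (hM : IsPModular p M) {B : Set (IrrCharacter G)} (hB : IsPBlock M B) {P : Subgroup G}
    (hPD : IsDefectGroup p M B P) (hP1 : P ≠ ⊥) (hcyc : IsCyclic P) {Z : Subgroup G} (hZ : Z ≤ P)
    {H : Subgroup G} (hH : H = Subgroup.normalizer (Z : Set G)) {c : Set (IrrCharacter H)}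
    (hcD : IsDefectGroup p M c (P.subgroupOf H)) (hc : IsInducedBlock M H c B) :
    Nat.card c = Nat.card B ∧ blockRank p c = blockRank p B ∧
      ∃ (I : IrrCharacter H → IrrCharacter G) (ε : IrrCharacter H → ℤ), IsPerfectIsometry p M c B I ε := by
  classical
  haveI := isPrime_of_pModular hM
  haveI := Cfsg.Agent.Lib.Char.Ortho.finite_irrCharacter (G := G)
  letI : Fintype (IrrCharacter G) := Fintype.ofFinite _
  have hPp : IsPGroup p P := Cfsg.Agent.Lib.Blocks.Defect2.isDefectGroup_isPGroup hPD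
  have hab := hab_of_cyclic hcyc
  have hCZ : Subgroup.centralizer (Z : Set G) ≤ H := by
    rw [hH]
    exact fun x hx => Cfsg.Agent.Lib.BlockH.Sylow.centralizer_le_normalizer'' Z hx
  have hPCZ : P ≤ Subgroup.centralizer (Z : Set G) := by
    intro a ha
    rw [Subgroup.mem_centralizer_iff]
    intro q hq
    exact hab q (hZ hq) a ha
  have hPH : P ≤ H := hPCZ.trans hCZ
  have hX : (P.subgroupOf H).map H.subtype = P := Subgroup.map_subgroupOf_eq_of_le hPH
  have hC : Subgroup.centralizer (P : Set G) ≤ H := (Subgroup.centralizer_le hZ).trans hCZ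
  have hNH : Subgroup.normalizer (P : Set G) ≤ H := by
    rw [hH]
    exact normalizer_le_normalizer_of_cyclic hcyc hZ
  -- the maximal pairs
  obtain ⟨e₁, hmax₁⟩ := Cfsg.Agent.Lib.BP.Nil4.exists_pair_of_defect hM hc.1 hcD
  set c₀ := blockMap (descEquiv hX hC) e₁ with hc₀
  have hind₁ := isInducedBlock_of_isBrauerPairOf hM hmax₁.1
  have hI : IsInducedBlock M (Subgroup.centralizer (P : Set G)) c₀ B :=
    Cfsg.Agent.Lib.KleinBlock.Trans.isInducedBlock_desc hX hC hind₁ hc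
  have hpair := Cfsg.Agent.Lib.Contrib.Section.isBrauerPairOf_of_induced hM hPp hI
  have hmax := isMaximal_of_isDefectGroup hM hpair hPD
  -- the defect group in `H`
  let φ : (P.subgroupOf H) ≃* P := Subgroup.subgroupOfEquivOfLe hPH
  have hcyc₂ : IsCyclic (P.subgroupOf H) := isCyclic_of_injective φ.toMonoidHom φ.injective
  have hqq : Nat.card (P.subgroupOf H) = Nat.card P := Nat.card_congr φ.toEquiv
  have hD1₂ : P.subgroupOf H ≠ ⊥ := by
    intro h
    rw [h, Subgroup.card_bot] at hqq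
    apply hP1
    exact Subgroup.card_eq_one.mp hqq.symm
  obtain ⟨L₁⟩ := exists_loc hM hmax hP1 hcyc
  obtain ⟨L₂⟩ := exists_loc hM hmax₁ hD1₂ hcyc₂
  -- the orbits
  obtain ⟨π, hπ⟩ := exists_orb_equiv (c₁ := c₀) (c₂ := e₁) φ
    (fun t₂ => ⟨⟨(t₂.1 : G), (mem_stabSub_desc' hX hC).mpr t₂.2⟩, fun w => Subtype.ext rfl⟩)
    (fun t₁ => ⟨⟨⟨t₁.1, hNH t₁.2.1⟩, (mem_stabSub_desc' hX hC).mp t₁.2⟩, fun w => Subtype.ext rfl⟩)
  -- the indices
  set e₀ := (Subgroup.centralizer (P : Set G)).relIndex (stabSub P c₀) with he₀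
  have he : (Subgroup.centralizer ((P.subgroupOf H : Subgroup H) : Set H)).relIndex (stabSub (P.subgroupOf H) e₁) = e₀ := by
    have h1 := relIndex_mul_card_dsh L₁
    have h2 := relIndex_mul_card_dsh L₂
    have h3 : Nat.card (MulAction.orbitRel.Quotient (stabSub (P.subgroupOf H) e₁) (DSh (P.subgroupOf H))) =
        Nat.card (MulAction.orbitRel.Quotient (stabSub P c₀) (DSh P)) := Nat.card_congr π
    rw [h3, hqq, ← h1] at h2
    have h4 : 0 < Nat.card (MulAction.orbitRel.Quotient (stabSub P c₀) (DSh P)) := by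
      have h5 : 1 < Nat.card P := (Subgroup.one_lt_card_iff_ne_bot P).mpr hP1
      apply Nat.pos_of_ne_zero
      intro h6
      rw [h6, mul_zero] at h1
      omega
    exact Nat.eq_of_mul_eq_mul_right h4 h2
  -- the cardinalities
  obtain ⟨a, ha⟩ := hPp.exists_card_eq
  obtain ⟨hr₁, hk₁, -⟩ := Cfsg.Agent.Lib.Dade.Main.main_structure hM hmax hP1 hcyc ha rfl
  obtain ⟨hr₂, hk₂, -⟩ := Cfsg.Agent.Lib.Dade.Main.main_structure hM hmax₁ hD1₂ hcyc₂ (hqq.trans ha) he
  refine ⟨by rw [hk₁, hk₂], by rw [hr₁, hr₂], ?_⟩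
  -- the decomposition data
  obtain ⟨S₁⟩ := exists_deco hM hmax hP1 hcyc
  have hS₂ : Nonempty (Deco p M c (Nat.card P) (fun (i : Orb (P.subgroupOf H) e₁) (u : Sh (P.subgroupOf H)) => sig i u.1) e₀) := by
    have h1 := exists_deco hM hmax₁ hD1₂ hcyc₂
    rwa [he, hqq] at h1
  obtain ⟨S₂⟩ := hS₂
  let φ' : Sh (P.subgroupOf H) ≃ Sh P := φ.toEquiv.subtypeEquiv (fun w =>
    not_congr (map_eq_one_iff φ φ.injective).symm)
  obtain ⟨χ₀, -⟩ := isPBlock_nonempty hB
  obtain ⟨I, ε, hP, -⟩ := Deco.perfect S₁ S₂ φ' π (fun j u => hπ j u.1) hM χ₀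
  exact ⟨I, ε, hP⟩

end Main

end Cfsg.Agent.Lib.Dade.PC
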