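import Mathlib
import Cfsg.Agent.Lib.Dade.PC

/-!
# Groups with a self-centralizing cyclic normal subgroup: the decomposition data
-/

set_option linter.unusedSectionVars false
set_option linter.style.haveILetI false
set_option autoImplicit false

namespace Cfsg.Agent.Lib.Dade.PF

open Cfsg
open Cfsg.Agent.Lib.Blocks.Local
open Cfsg.Agent.Lib.BlockH.MaxPair
open Cfsg.Agent.Lib.BP.StarDefs
open Cfsg.Agent.Lib.Char.Basic Cfsg.Agent.Lib.Char.Complete Cfsg.Agent.Lib.Char.Ortho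
open Cfsg.Agent.Lib.Dade.NilDual Cfsg.Agent.Lib.Dade.Base Cfsg.Agent.Lib.Dade.Loc Cfsg.Agent.Lib.Dade.Count
open Cfsg.Agent.Lib.Dade.Num Cfsg.Agent.Lib.Dade.PA Cfsg.Agent.Lib.Dade.Perf
open scoped ComplexConjugate

universe v

variable {F : Type v} [Group F] [Fintype F] [Fintype (IrrCharacter F)] {Q : Subgroup F}

attribute [local instance] fK fIrr fBl fDual fOrb fB

/-- All the characters of the centralizer. -/
abbrev UU (Q : Subgroup F) : Set (IrrCharacter (Subgroup.centralizer (Q : Set F))) := Set.univ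

theorem isCharacter_homFun (γ : Q →* ℂˣ) : IsCharacter Q (homFun γ) :=
  isCharacter_of_isIrrCharacter (homFun_isIrr γ)

/-- The multiplicities of the restriction to `Q`. -/
noncomputable def mF (η : IrrCharacter F) (γ : Q →* ℂˣ) : ℕ :=
  (exists_nat_classInner (isCharacter_restrict Q (isCharacter_of_isIrrCharacter η.2)) (isCharacter_homFun γ)).choose

theorem mF_spec (η : IrrCharacter F) (γ : Q →* ℂˣ) :
    classInner (fun k : Q => (η : F → ℂ) k) (homFun γ) = (mF η γ : ℂ) :=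
  (exists_nat_classInner (isCharacter_restrict Q (isCharacter_of_isIrrCharacter η.2)) (isCharacter_homFun γ)).choose_spec

theorem hom_inv_eq_conj (γ : Q →* ℂˣ) (u : Q) : ((γ u⁻¹ : ℂˣ) : ℂ) = conj ((γ u : ℂˣ) : ℂ) :=
  char_inv_eq_conj (isCharacter_homFun γ) u

theorem mF_eq_sum (η : IrrCharacter F) (γ : Q →* ℂˣ) :
    (mF η γ : ℂ) = (Nat.card Q : ℂ)⁻¹ * ∑ u : Q, (η : F → ℂ) u * conj ((γ u : ℂˣ) : ℂ) := by
  rw [← mF_spec, classInner_def]
  rfl

/-- **The restriction to `Q`.** -/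
theorem eq_sum_mF (hab : ∀ a b : Q, a * b = b * a) (η : IrrCharacter F) (u : Q) :
    (η : F → ℂ) u = ∑ γ : Q →* ℂˣ, (mF η γ : ℂ) * ((γ u : ℂˣ) : ℂ) := by
  classical
  have hq : (Nat.card Q : ℂ) ≠ 0 := by exact_mod_cast Nat.card_pos.ne'
  have hd : Nat.card (Q →* ℂˣ) = Nat.card Q := (Cfsg.Agent.Lib.Glauberman.Act.dual_facts hab).2.1
  simp_rw [mF_eq_sum, Finset.mul_sum, Finset.sum_mul]
  rw [Finset.sum_comm]
  have h1 : ∀ v : Q, ∑ γ : Q →* ℂˣ, (Nat.card Q : ℂ)⁻¹ * ((η : F → ℂ) v * conj ((γ v : ℂˣ) : ℂ)) * ((γ u : ℂˣ) : ℂ) =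
      (Nat.card Q : ℂ)⁻¹ * (η : F → ℂ) v * ∑ γ : Q →* ℂˣ, ((γ (u * v⁻¹) : ℂˣ) : ℂ) := by
    intro v
    rw [Finset.mul_sum]
    refine Finset.sum_congr rfl fun γ _ => ?_
    rw [map_mul, Units.val_mul, hom_inv_eq_conj]
    ring
  simp_rw [h1, Cfsg.Agent.Lib.Glauberman.Act.sum_dual hab, hd]
  rw [Finset.sum_eq_single u]
  · simp
    field_simp
  · intro v _ hv
    rw [if_neg]
    · simp
    · intro h
      exact hv (by rw [mul_inv_eq_one.mp h])
  · intro h
    exact absurd (Finset.mem_univ _) h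

/-- Invariance of the multiplicities. -/
theorem mF_dA (η : IrrCharacter F) (t : stabSub Q (UU Q)) (γ : Q →* ℂˣ) : mF η (Data.dA t γ) = mF η γ := by
  have h : (mF η (Data.dA t γ) : ℂ) = mF η γ := by
    rw [mF_eq_sum, mF_eq_sum]
    congr 1
    rw [← Equiv.sum_comp (Data.actD t).toEquiv]
    refine Finset.sum_congr rfl fun u _ => ?_
    have e1 : ((Data.actD t u : Q) : F) = (t : F) * u * (t : F)⁻¹ := rfl
    have e2 : Data.dA t γ (Data.actD t u) = γ u := by
      rw [Data.dA_apply, ← MulAut.mul_apply, ← map_mul]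
      simp
    change (η : F → ℂ) ((Data.actD t u : Q) : F) * conj ((Data.dA t γ (Data.actD t u) : ℂˣ) : ℂ) = _
    rw [e1, e2, Cfsg.Agent.Lib.BP.Star2.class_irr η]
  exact_mod_cast h

open Classical in
/-- The sum over the irreducible characters as a count. -/
theorem sum_irr_eq_card (hT : ∀ f : F, f ∈ stabSub Q (UU Q)) (u v : Q) :
    ∑ η : IrrCharacter F, (η : F → ℂ) u * conj ((η : F → ℂ) v) =
      ((Finset.univ.filter fun t : stabSub Q (UU Q) => Data.actD t u = v).card : ℂ) := by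
  rw [sum_irr_mul_conj]
  by_cases h : IsConj (u : F) (v : F)
  · rw [if_pos h]
    obtain ⟨f₀, hf₀⟩ := isConj_iff.mp h
    congr 1
    rw [← Fintype.card_subtype, ← Nat.card_eq_fintype_card]
    refine Nat.card_congr ⟨fun c => ⟨⟨c * f₀, hT _⟩, ?_⟩, fun t => ⟨(t.1 : F) * f₀⁻¹, ?_⟩, ?_, ?_⟩
    · apply Subtype.ext
      change ((c : F) * f₀) * (u : F) * ((c : F) * f₀)⁻¹ = v
      have hc : (c : F) * v = v * c := Subgroup.mem_centralizer_singleton_iff.mp c.2
      calc ((c : F) * f₀) * (u : F) * ((c : F) * f₀)⁻¹ = (c : F) * (f₀ * u * f₀⁻¹) * (c : F)⁻¹ := by group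
        _ = (c : F) * v * (c : F)⁻¹ := by rw [hf₀]
        _ = v := by rw [hc]; group
    · rw [Subgroup.mem_centralizer_singleton_iff]
      have h1 : ((t.1 : F)) * u * (t.1 : F)⁻¹ = v := congrArg Subtype.val t.2
      calc (t.1 : F) * f₀⁻¹ * v = (t.1 : F) * (f₀⁻¹ * v * f₀) * (t.1 : F)⁻¹ * ((t.1 : F) * f₀⁻¹) := by group
        _ = (t.1 : F) * u * (t.1 : F)⁻¹ * ((t.1 : F) * f₀⁻¹) := by
            rw [← hf₀]
            group
        _ = _ := by rw [h1]
    · intro c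
      apply Subtype.ext
      simp
    · intro t
      apply Subtype.ext
      apply Subtype.ext
      simp
  · rw [if_neg h]
    symm
    rw [Nat.cast_eq_zero, Finset.card_eq_zero]
    apply Finset.filter_eq_empty_iff.mpr
    intro t _ h2
    apply h
    refine isConj_iff.mpr ⟨t, ?_⟩
    exact congrArg Subtype.val h2

open Classical in
/-- **The scalar products of the columns of multiplicities.** -/
theorem card_mul_sum_mF (hT : ∀ f : F, f ∈ stabSub Q (UU Q)) (γ γ' : Q →* ℂˣ) :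
    Nat.card Q * ∑ η : IrrCharacter F, mF η γ * mF η γ' =
      (Finset.univ.filter fun t : stabSub Q (UU Q) => Data.dA t γ' = γ).card := by
  have hq : (Nat.card Q : ℂ) ≠ 0 := by exact_mod_cast Nat.card_pos.ne'
  have key : (∑ η : IrrCharacter F, (mF η γ : ℂ) * (mF η γ' : ℂ)) =
      (Nat.card Q : ℂ)⁻¹ * ((Finset.univ.filter fun t : stabSub Q (UU Q) => Data.dA t γ' = γ).card : ℂ) := by
    have h1 : ∀ η : IrrCharacter F, (mF η γ : ℂ) * (mF η γ' : ℂ) =
        (Nat.card Q : ℂ)⁻¹ * (Nat.card Q : ℂ)⁻¹ * ∑ u : Q, ∑ v : Q, conj ((γ u : ℂˣ) : ℂ) * ((γ' v : ℂˣ) : ℂ) *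
          ((η : F → ℂ) u * conj ((η : F → ℂ) v)) := by
      intro η
      have h2 : (mF η γ' : ℂ) = conj (mF η γ' : ℂ) := by simp
      rw [h2, mF_eq_sum, mF_eq_sum, map_mul, map_sum]
      simp only [map_mul, Complex.conj_conj, map_inv₀, map_natCast]
      rw [mul_mul_mul_comm, Finset.sum_mul_sum]
      congr 1
      refine Finset.sum_congr rfl fun u _ => Finset.sum_congr rfl fun v _ => ?_
      ring
    simp_rw [h1]
    rw [← Finset.mul_sum]
    rw [Finset.sum_comm]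
    have h3 : ∀ u : Q, (∑ η : IrrCharacter F, ∑ v : Q, conj ((γ u : ℂˣ) : ℂ) * ((γ' v : ℂˣ) : ℂ) *
        ((η : F → ℂ) u * conj ((η : F → ℂ) v))) = ∑ t : stabSub Q (UU Q), conj ((γ u : ℂˣ) : ℂ) *
          ((Data.dA t⁻¹ γ' u : ℂˣ) : ℂ) := by
      intro u
      rw [Finset.sum_comm]
      have h4 : ∀ v : Q, (∑ η : IrrCharacter F, conj ((γ u : ℂˣ) : ℂ) * ((γ' v : ℂˣ) : ℂ) *
          ((η : F → ℂ) u * conj ((η : F → ℂ) v))) = ∑ t : stabSub Q (UU Q),
            if Data.actD t u = v then conj ((γ u : ℂˣ) : ℂ) * ((γ' v : ℂˣ) : ℂ) else 0 := by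
        intro v
        rw [← Finset.mul_sum, sum_irr_eq_card hT, Finset.card_eq_sum_ones, Finset.sum_filter]
        push_cast
        rw [Finset.mul_sum]
        refine Finset.sum_congr rfl fun t _ => ?_
        split_ifs <;> simp
      simp_rw [h4]
      rw [Finset.sum_comm]
      refine Finset.sum_congr rfl fun t _ => ?_
      rw [Finset.sum_ite_eq]
      simp only [Finset.mem_univ, if_true]
      rw [Data.dA_apply, inv_inv]
    simp_rw [h3]
    rw [Finset.sum_comm]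
    have h5 : ∀ t : stabSub Q (UU Q), (∑ u : Q, conj ((γ u : ℂˣ) : ℂ) * ((Data.dA t⁻¹ γ' u : ℂˣ) : ℂ)) =
        if Data.dA t⁻¹ γ' = γ then (Nat.card Q : ℂ) else 0 := by
      intro t
      have h6 := sum_hom_mul_conj (Data.dA t⁻¹ γ') γ
      rw [← h6]
      refine Finset.sum_congr rfl fun u _ => ?_
      ring
    simp_rw [h5]
    rw [← Finset.sum_filter, Finset.sum_const, nsmul_eq_mul]
    have h7 : (Finset.univ.filter fun t : stabSub Q (UU Q) => Data.dA t⁻¹ γ' = γ).card =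
        (Finset.univ.filter fun t : stabSub Q (UU Q) => Data.dA t γ' = γ).card := by
      refine Finset.card_equiv (Equiv.inv _) fun t => ?_
      simp
    rw [h7]
    field_simp
  have h2 : ((Nat.card Q * ∑ η : IrrCharacter F, mF η γ * mF η γ' : ℕ) : ℂ) =
      ((Finset.univ.filter fun t : stabSub Q (UU Q) => Data.dA t γ' = γ).card : ℕ) := by
    push_cast
    rw [key]
    field_simp
  exact_mod_cast h2

/-- A sum of squares of natural numbers equal to one. -/
theorem exists_of_sum_mul_self {α : Type*} [Fintype α] (f : α → ℕ) (h : ∑ a, f a * f a = 1) :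
    ∃ a, f a = 1 ∧ ∀ b, b ≠ a → f b = 0 := by
  classical
  obtain ⟨a, ha⟩ : ∃ a, f a ≠ 0 := by
    by_contra hcon
    push Not at hcon
    simp [hcon] at h
  have h1 := Finset.add_sum_erase Finset.univ (fun a => f a * f a) (Finset.mem_univ a)
  rw [h] at h1
  have h2 : 1 ≤ f a * f a := Nat.mul_pos (Nat.pos_of_ne_zero ha) (Nat.pos_of_ne_zero ha)
  have h3 : f a * f a = 1 := by omega
  have h4 : ∑ x ∈ Finset.univ.erase a, f x * f x = 0 := by omega
  refine ⟨a, Nat.eq_one_of_mul_eq_one_right h3, fun b hb => ?_⟩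
  have h5 := (Finset.sum_eq_zero_iff.mp h4) b (Finset.mem_erase.mpr ⟨hb, Finset.mem_univ b⟩)
  exact mul_self_eq_zero.mp h5

section Main

variable {p : ℕ} [Fact p.Prime] {M : Ideal AlgInt}
  (hT : ∀ f : F, f ∈ stabSub Q (UU Q))
  (hab : ∀ a b : Q, a * b = b * a)
  (hfreeS : ∀ (t : stabSub Q (UU Q)) (u : Q), u ≠ 1 → Data.actD t u = u → (t : F) ∈ Q)
  (hfreeD : ∀ (t : stabSub Q (UU Q)) (γ : Q →* ℂˣ), γ ≠ 1 → Data.dA t γ = γ → (t : F) ∈ Q)

include hT hab hfreeD in
theorem card_stabilizer (γ : DSh Q) : Nat.card (MulAction.stabilizer (stabSub Q (UU Q)) γ) = Nat.card Q := by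
  have h1 : ∀ t : stabSub Q (UU Q), t • γ = γ ↔ (t : F) ∈ Q := by
    intro t
    constructor
    · intro h
      exact hfreeD t γ.1 γ.2 (congrArg Subtype.val h)
    · intro h
      apply Subtype.ext
      rw [coe_smul_dsh]
      refine MonoidHom.ext fun w => ?_
      rw [Data.dA_apply]
      congr 1
      apply Subtype.ext
      rw [Data.coe_actD_inv]
      have h2 := hab ⟨t, h⟩ w
      have h3 : (t : F) * (w : F) = (w : F) * (t : F) := congrArg Subtype.val h2
      rw [mul_assoc, ← h3]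
      group
  refine Nat.card_congr ⟨fun t => ⟨t.1, (h1 t.1).mp t.2⟩, fun u => ⟨⟨u, hT u⟩, (h1 _).mpr u.2⟩, ?_, ?_⟩
  · intro t
    rfl
  · intro u
    rfl

open Classical in
include hT hab hfreeD in
theorem sum_mF_same {γ γ' : DSh Q} (h : orbOf γ = (orbOf γ' : Orb Q (UU Q))) :
    ∑ η : IrrCharacter F, mF η γ.1 * mF η γ'.1 = 1 := by
  have h1 := card_mul_sum_mF hT γ.1 γ'.1
  have h2 : ∃ t₀ : stabSub Q (UU Q), t₀ • γ' = γ := by
    have h4 : (MulAction.orbitRel (stabSub Q (UU Q)) (DSh Q)) γ γ' := Quotient.exact h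
    exact h4
  have h3 := card_filter_smul_eq γ' γ h2
  rw [card_stabilizer hT hab hfreeD] at h3
  have h5 : (Finset.univ.filter fun t : stabSub Q (UU Q) => Data.dA t γ'.1 = γ.1) =
      (Finset.univ.filter fun t : stabSub Q (UU Q) => t • γ' = γ) := by
    ext t
    simp only [Finset.mem_filter, Finset.mem_univ, true_and]
    exact ⟨fun h6 => Subtype.ext h6, fun h6 => congrArg Subtype.val h6⟩
  rw [h5, h3] at h1
  exact Nat.eq_of_mul_eq_mul_left Nat.card_pos (by rw [h1, mul_one])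

open Classical in
include hT in
theorem sum_mF_ne {γ γ' : DSh Q} (h : orbOf γ ≠ (orbOf γ' : Orb Q (UU Q))) :
    ∑ η : IrrCharacter F, mF η γ.1 * mF η γ'.1 = 0 := by
  have h1 := card_mul_sum_mF hT γ.1 γ'.1
  have h5 : (Finset.univ.filter fun t : stabSub Q (UU Q) => Data.dA t γ'.1 = γ.1) = ∅ := by
    apply Finset.filter_eq_empty_iff.mpr
    intro t _ h6
    apply h
    have h7 : t • γ' = γ := Subtype.ext h6
    rw [← h7, orbOf_smul]
  rw [h5, Finset.card_empty] at h1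
  exact (mul_eq_zero.mp h1).resolve_left Nat.card_pos.ne'

open Classical in
include hT in
theorem sum_mF_one {γ : Q →* ℂˣ} (h : γ ≠ 1) : ∑ η : IrrCharacter F, mF η γ * mF η (1 : Q →* ℂˣ) = 0 := by
  have h1 := card_mul_sum_mF hT γ 1
  have h5 : (Finset.univ.filter fun t : stabSub Q (UU Q) => Data.dA t (1 : Q →* ℂˣ) = γ) = ∅ := by
    apply Finset.filter_eq_empty_iff.mpr
    intro t _ h6
    apply h
    rw [← h6]
    rfl
  rw [h5, Finset.card_empty] at h1
  exact (mul_eq_zero.mp h1).resolve_left Nat.card_pos.ne'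

open Classical in
include hT in
theorem sum_mF_one_one {e : ℕ} (he : Nat.card F = Nat.card Q * e) :
    ∑ η : IrrCharacter F, mF η (1 : Q →* ℂˣ) * mF η (1 : Q →* ℂˣ) = e := by
  have h1 := card_mul_sum_mF hT (1 : Q →* ℂˣ) 1
  have h5 : (Finset.univ.filter fun t : stabSub Q (UU Q) => Data.dA t (1 : Q →* ℂˣ) = 1) = Finset.univ := by
    apply Finset.filter_true_of_mem
    intro t _
    rfl
  rw [h5, Finset.card_univ, ← Nat.card_eq_fintype_card] at h1
  have h6 : Nat.card (stabSub Q (UU Q)) = Nat.card F := Nat.card_congr (Equiv.subtypeUnivEquiv hT)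
  rw [h6, he] at h1
  exact Nat.eq_of_mul_eq_mul_left Nat.card_pos h1

/-- The orders of the centralizers of nontrivial elements of `Q`. -/
theorem centralizer_eq (hT : ∀ f : F, f ∈ stabSub Q (UU Q)) (hab : ∀ a b : Q, a * b = b * a)
    (hfreeS : ∀ (t : stabSub Q (UU Q)) (u : Q), u ≠ 1 → Data.actD t u = u → (t : F) ∈ Q)
    {u : F} (hu : u ∈ Q) (hu1 : u ≠ 1) : Subgroup.centralizer ({u} : Set F) = Q := by
  ext c
  rw [Subgroup.mem_centralizer_singleton_iff]
  constructor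
  · intro h
    refine hfreeS ⟨c, hT c⟩ ⟨u, hu⟩ (fun h0 => hu1 (congrArg Subtype.val h0)) ?_
    apply Subtype.ext
    rw [Data.coe_actD]
    change c * u * c⁻¹ = u
    rw [h]
    group
  · intro h
    exact congrArg Subtype.val (hab ⟨c, h⟩ ⟨u, hu⟩)

/-- The singular elements lie in `Q`. -/
theorem mem_of_singular (hT : ∀ f : F, f ∈ stabSub Q (UU Q))
    (hfreeS : ∀ (t : stabSub Q (UU Q)) (u : Q), u ≠ 1 → Data.actD t u = u → (t : F) ∈ Q) [Q.Normal] {e : ℕ}
    (he : Nat.card F = Nat.card Q * e) (hpe : ¬ p ∣ e) {g : F} (hg : p ∣ orderOf g) : g ∈ Q ∧ g ≠ 1 := by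
  have hp : p.Prime := Fact.out
  obtain ⟨r, y, rfl, ⟨k, hk⟩, hcm, hy⟩ := Cfsg.Agent.Lib.BP.Star2.exists_sec (p := p) g
  have hr1 : r ≠ 1 := by
    rintro rfl
    rw [one_mul] at hg
    exact hy hg
  have hidx : Q.index = e := by
    have h1 := Subgroup.card_mul_index Q
    rw [he] at h1
    exact Nat.eq_of_mul_eq_mul_left Nat.card_pos h1
  have hrQ : r ∈ Q := by
    rw [← QuotientGroup.eq_one_iff]
    have h1 : orderOf (r : F ⧸ Q) ∣ p ^ k := by
      apply orderOf_dvd_of_pow_eq_one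
      rw [← QuotientGroup.mk_pow, ← hk, pow_orderOf_eq_one]
      rfl
    have h2 : orderOf (r : F ⧸ Q) ∣ e := by
      rw [← hidx, Subgroup.index_eq_card]
      exact orderOf_dvd_natCard _
    have h3 : Nat.Coprime (p ^ k) e := Nat.Coprime.pow_left k ((Nat.Prime.coprime_iff_not_dvd hp).mpr hpe)
    have h4 := Nat.Coprime.eq_one_of_dvd (Nat.Coprime.coprime_dvd_left h1 h3) h2
    exact orderOf_eq_one_iff.mp h4
  have hyQ : y ∈ Q := by
    refine hfreeS ⟨y, hT y⟩ ⟨r, hrQ⟩ (fun h0 => hr1 (congrArg Subtype.val h0)) ?_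
    apply Subtype.ext
    rw [Data.coe_actD]
    change y * r * y⁻¹ = r
    rw [hcm.eq]
    group
  refine ⟨Q.mul_mem hrQ hyQ, ?_⟩
  intro h0
  rw [h0, orderOf_one] at hg
  exact hp.one_lt.ne' (Nat.dvd_one.mp hg)

open Classical in
include hT hab hfreeS hfreeD in
/-- **The decomposition data of a group with a self-centralizing normal abelian subgroup.** -/
theorem exists_deco_F (hM : IsPModular p M) (hQp : IsPGroup p Q) [Q.Normal] {e : ℕ}
    (he : Nat.card F = Nat.card Q * e) (hpe : ¬ p ∣ e) (hcomm : ∀ a b : F ⧸ Q, a * b = b * a) :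
    ∃ S : Deco p M (Set.univ : Set (IrrCharacter F)) (Nat.card Q)
      (fun (i : Orb Q (UU Q)) (u : Sh Q) => sig i u.1) e,
      ∀ η, η ∉ Set.range S.ν → ∀ x ∈ Q, ((η : IrrCharacter F) : F → ℂ) x = ((η : IrrCharacter F) : F → ℂ) 1 := by
  have hp : p.Prime := Fact.out
  haveI := isPrime_of_pModular hM
  -- the non-exceptional characters
  have hex : ∀ j : Orb Q (UU Q), ∃ η : IrrCharacter F, mF η (rp j).1 = 1 ∧ ∀ b, b ≠ η → mF b (rp j).1 = 0 :=
    fun j => exists_of_sum_mul_self _ (sum_mF_same hT hab hfreeD rfl)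
  choose ν₂ hν₁ hν₀ using hex
  have hinv : ∀ (η : IrrCharacter F) (γ : DSh Q), mF η γ.1 = mF η (rp (orbOf γ : Orb Q (UU Q))).1 := fun η γ =>
    inv_eq_rp (c := UU Q) (F := mF η) (fun t γ => mF_dA η t γ) γ
  have hinj : Function.Injective ν₂ := by
    intro j j' hjj
    by_contra hne
    have h1 : orbOf (rp j) ≠ (orbOf (rp j') : Orb Q (UU Q)) := by
      rw [orbOf_rp, orbOf_rp]
      exact hne
    have h2 := sum_mF_ne hT h1
    have h3 := (Finset.sum_eq_zero_iff.mp h2) (ν₂ j) (Finset.mem_univ _)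
    rw [hν₁ j, hjj, hν₁ j'] at h3
    omega
  have hν1 : ∀ j, mF (ν₂ j) (1 : Q →* ℂˣ) = 0 := by
    intro j
    have h2 := sum_mF_one hT (rp j).2
    have h3 := (Finset.sum_eq_zero_iff.mp h2) (ν₂ j) (Finset.mem_univ _)
    rw [hν₁ j] at h3
    omega
  have hmY : ∀ j (γ : DSh Q), mF (ν₂ j) γ.1 = if orbOf γ = j then 1 else 0 := by
    intro j γ
    rw [hinv]
    by_cases h : orbOf γ = j
    · rw [if_pos h, h, hν₁]
    · rw [if_neg h]
      exact hν₀ _ _ (fun h2 => h (hinj h2.symm) |>.elim)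
  have hvalY : ∀ j (u : Q), (ν₂ j : F → ℂ) u = sig j u := by
    intro j u
    rw [eq_sum_mF hab, Fintype.sum_eq_add_sum_subtype_ne _ (1 : Q →* ℂˣ), hν1]
    simp only [Nat.cast_zero, zero_mul, zero_add]
    rw [sig]
    refine Finset.sum_congr rfl fun γ _ => ?_
    rw [hmY]
    split_ifs <;> simp
  -- the exceptional characters
  have hm0 : ∀ η : IrrCharacter F, η ∉ Set.range ν₂ → ∀ γ : DSh Q, mF η γ.1 = 0 := by
    intro η hη γ
    rw [hinv]
    exact hν₀ _ _ (fun h => hη ⟨_, h.symm⟩)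
  have hvalX : ∀ η : IrrCharacter F, η ∉ Set.range ν₂ → ∀ u : Q, (η : F → ℂ) u = (mF η (1 : Q →* ℂˣ) : ℂ) := by
    intro η hη u
    rw [eq_sum_mF hab, Fintype.sum_eq_add_sum_subtype_ne _ (1 : Q →* ℂˣ)]
    have h1 : ∑ γ : {γ : Q →* ℂˣ // γ ≠ 1}, (mF η γ.1 : ℂ) * ((γ.1 u : ℂˣ) : ℂ) = 0 :=
      Finset.sum_eq_zero fun γ _ => by rw [hm0 η hη γ]; simp
    rw [h1]
    simp
  have hdeg : ∀ η : IrrCharacter F, η ∉ Set.range ν₂ → 0 < mF η (1 : Q →* ℂˣ) := by
    intro η hη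
    have h1 := hvalX η hη 1
    have h2 : (η : F → ℂ) ((1 : Q) : F) = ((charDegree (η : F → ℂ) : ℕ) : ℂ) :=
      Cfsg.Agent.Lib.Blocks.Heights.irr_one_eq η
    rw [h2] at h1
    have h3 : charDegree (η : F → ℂ) = mF η (1 : Q →* ℂˣ) := by exact_mod_cast h1
    rw [← h3]
    exact Cfsg.Agent.Lib.Char.Degree.charDegree_pos η.2
  set X : Finset (IrrCharacter F) := Finset.univ.filter fun η => η ∉ Set.range ν₂ with hX
  have hsumX : ∑ η ∈ X, mF η (1 : Q →* ℂˣ) * mF η (1 : Q →* ℂˣ) = e := by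
    rw [← sum_mF_one_one hT he, hX]
    refine Finset.sum_filter_of_ne ?_
    intro η _ hne
    rintro ⟨j, rfl⟩
    rw [hν1 j] at hne
    simp at hne
  -- at least `e` of them
  have hidx : Q.index = e := by
    have h1 := Subgroup.card_mul_index Q
    rw [he] at h1
    exact Nat.eq_of_mul_eq_mul_left Nat.card_pos h1
  obtain ⟨-, hdc, -⟩ := Cfsg.Agent.Lib.Glauberman.Act.dual_facts hcomm
  have hle : e ≤ X.card := by
    have hc : Fintype.card (F ⧸ Q →* ℂˣ) = e := by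
      rw [← Nat.card_eq_fintype_card, hdc, ← hidx, Subgroup.index_eq_card]
    rw [← hc, ← Finset.card_univ]
    refine Finset.card_le_card_of_injOn
      (fun l => homIrr (l.comp (QuotientGroup.mk' Q))) ?_ ?_
    · intro l _
      simp only [hX, Finset.coe_filter, Finset.mem_univ, true_and, Set.mem_ofPred_eq]
      rintro ⟨j, hj⟩
      have h1 := hν1 j
      rw [hj] at h1
      have h2 := mF_spec (homIrr (l.comp (QuotientGroup.mk' Q))) (1 : Q →* ℂˣ)
      rw [h1] at h2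
      have h3 : (fun k : Q => ((homIrr (l.comp (QuotientGroup.mk' Q)) : IrrCharacter F) : F → ℂ) k) =
          homFun (1 : Q →* ℂˣ) := by
        funext k
        have h4 : (QuotientGroup.mk' Q) (k : F) = 1 := (QuotientGroup.eq_one_iff _).mpr k.2
        change ((l ((QuotientGroup.mk' Q) (k : F)) : ℂˣ) : ℂ) = _
        rw [h4]
        simp
      rw [h3, classInner_self_of_isIrr (homFun_isIrr _)] at h2
      simp at h2
    · intro l _ l' _ h
      have h1 := congrArg Subtype.val h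
      apply MonoidHom.ext
      intro a
      obtain ⟨f, rfl⟩ := QuotientGroup.mk'_surjective Q a
      have h2 := congrFun h1 f
      exact Units.ext h2
  -- exactly `e`, of degree one
  have hge : X.card ≤ e := by
    rw [← hsumX, Finset.card_eq_sum_ones]
    refine Finset.sum_le_sum fun η hη => ?_
    have := hdeg η (Finset.mem_filter.mp hη).2
    exact Nat.mul_pos this this
  have hXe : X.card = e := le_antisymm hge hle
  have hm1 : ∀ η : IrrCharacter F, η ∉ Set.range ν₂ → mF η (1 : Q →* ℂˣ) = 1 := by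
    intro η hη
    have h1 : ∑ η ∈ X, 1 = ∑ η ∈ X, mF η (1 : Q →* ℂˣ) * mF η (1 : Q →* ℂˣ) := by
      rw [hsumX, ← Finset.card_eq_sum_ones, hXe]
    have h2 := (Finset.sum_eq_sum_iff_of_le (fun η hη => by
      have := hdeg η (Finset.mem_filter.mp hη).2
      exact Nat.mul_pos this this)).mp h1
    have h3 := h2 η (Finset.mem_filter.mpr ⟨Finset.mem_univ _, hη⟩)
    exact Nat.eq_one_of_mul_eq_one_right h3.symm
  -- the data
  have hsum : ∀ f : IrrCharacter F → ℂ, ∑ χ : (Set.univ : Set (IrrCharacter F)), f χ = ∑ χ, f χ :=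
    fun f => Fintype.sum_equiv (Equiv.Set.univ _) _ _ (fun _ => rfl)
  have horder : ∀ u : Q, u ≠ 1 → p ∣ orderOf (u : F) := by
    intro u hu
    obtain ⟨k, hk⟩ := (IsPGroup.iff_orderOf.mp hQp) u
    have hk0 : k ≠ 0 := by
      rintro rfl
      rw [pow_zero, orderOf_eq_one_iff] at hk
      exact hu hk
    rw [Subgroup.orderOf_coe, hk]
    exact dvd_pow_self p hk0
  let ν : Orb Q (UU Q) → (Set.univ : Set (IrrCharacter F)) := fun j => ⟨ν₂ j, trivial⟩
  have hνr : ∀ χ : (Set.univ : Set (IrrCharacter F)), χ ∉ Set.range ν ↔ (χ : IrrCharacter F) ∉ Set.range ν₂ := by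
    intro χ
    refine not_congr ⟨?_, ?_⟩
    · rintro ⟨j, rfl⟩
      exact ⟨j, rfl⟩
    · rintro ⟨j, hj⟩
      exact ⟨j, Subtype.ext hj⟩
  have hsymm : ∀ (a b : F), ∑ χ : IrrCharacter F, (χ : F → ℂ) a * (χ : F → ℂ) b =
      ∑ χ : IrrCharacter F, (χ : F → ℂ) a * conj ((χ : F → ℂ) b⁻¹) := by
    intro a b
    refine Finset.sum_congr rfl fun χ _ => ?_
    rw [← char_inv_eq_conj (isCharacter_of_isIrrCharacter χ.2), inv_inv]
  have hsymm0 : ∀ (a b : F), ¬ IsConj a b⁻¹ → ∑ χ : IrrCharacter F, (χ : F → ℂ) a * (χ : F → ℂ) b = 0 := by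
    intro a b h
    have h1 := sum_irr_mul_conj a b⁻¹
    rw [if_neg h] at h1
    rw [hsymm, h1]
  have hsymm1 : ∀ (a b : F), IsConj a b⁻¹ → ∑ χ : IrrCharacter F, (χ : F → ℂ) a * (χ : F → ℂ) b =
      (Nat.card (Subgroup.centralizer ({b⁻¹} : Set F)) : ℂ) := by
    intro a b h
    have h1 := sum_irr_mul_conj a b⁻¹
    rw [if_pos h] at h1
    rw [hsymm, h1]
  refine ⟨{ ν := ν, hν := fun j j' h => hinj (congrArg Subtype.val h), ε₀ := 1, hε₀ := Or.inl rfl, a := fun _ => 1,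
            ha := fun _ _ => Or.inl rfl, dec := fun u χ => ((χ : IrrCharacter F) : F → ℂ) (u.1 : F), hX := ?_, hY := ?_,
            hreg := ?_, hsing := ?_, hcol := ?_, hcard := ?_ }, ?_⟩
  · intro u χ hχ
    rw [hvalX _ ((hνr χ).mp hχ), hm1 _ ((hνr χ).mp hχ)]
    simp
  · intro u j
    rw [Int.cast_one, one_mul]
    exact hvalY j u.1
  · intro u y hy
    rw [hsum (fun χ => (χ : F → ℂ) (u.1 : F) * (χ : F → ℂ) y)]
    apply hsymm0
    intro hcj
    apply hy
    have h1 := horder u.1 u.2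
    obtain ⟨c, hc⟩ := isConj_iff.mp hcj
    rw [← orderOf_inv y, ← hc, Cfsg.Agent.Lib.BP.Nil1.orderOf_conj']
    exact h1
  · intro g hg
    obtain ⟨hgQ, hg1⟩ := mem_of_singular hT hfreeS he hpe hg
    refine ⟨PUnit, inferInstance, fun _ => ⟨⟨g, hgQ⟩, fun h => hg1 (congrArg Subtype.val h)⟩, fun _ => 1,
      fun _ => memLocalRing_of_isIntegral isIntegral_one, fun _ => ?_, fun χ => ?_⟩
    · rw [centralizer_eq hT hab hfreeS hgQ hg1, mul_one, div_self (by exact_mod_cast Nat.card_pos.ne')]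
      exact memLocalRing_of_isIntegral isIntegral_one
    · simp
  · intro u v
    rw [hsum (fun χ => (χ : F → ℂ) (u.1 : F) * (χ : F → ℂ) (v.1 : F))]
    by_cases hcj : IsConj (u.1 : F) ((v.1 : F))⁻¹
    · refine ⟨1, ?_⟩
      have hv1 : ((v.1 : F))⁻¹ ≠ 1 := fun h => v.2 (Subtype.ext (inv_eq_one.mp h))
      rw [hsymm1 _ _ hcj, centralizer_eq hT hab hfreeS (Q.inv_mem v.1.2) hv1]
      simp
    · exact ⟨0, by rw [hsymm0 _ _ hcj]; simp⟩
  · rw [← hXe, hX, ← Fintype.card_subtype, ← Nat.card_eq_fintype_card]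
    exact Nat.card_congr (Equiv.subtypeEquiv (Equiv.Set.univ _) (fun χ => hνr χ))
  · intro η hη x hx
    have h1 := hvalX _ ((hνr η).mp hη) ⟨x, hx⟩
    have h2 := hvalX _ ((hνr η).mp hη) 1
    rw [← h2] at h1
    exact h1

end Main

end Cfsg.Agent.Lib.Dade.PF
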