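import Mathlib
import Cfsg.Agent.Lib.Dade.PF

/-!
# The perfect isometry with the model of a block with a cyclic defect group
-/

set_option linter.unusedSectionVars false
set_option linter.style.haveILetI false
set_option autoImplicit false

namespace Cfsg.Agent.Lib.Dade.PG

open Cfsg
open Cfsg.Agent.Lib.Blocks.Local Cfsg.Agent.Lib.Blocks.Central
open Cfsg.Agent.Lib.BlockH.MaxPair
open Cfsg.Agent.Lib.BP.StarDefs
open Cfsg.Agent.Lib.Dade.Base Cfsg.Agent.Lib.Dade.Loc Cfsg.Agent.Lib.Dade.Count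
open Cfsg.Agent.Lib.Dade.Num Cfsg.Agent.Lib.Dade.PA Cfsg.Agent.Lib.Dade.Perf
open Cfsg.Agent.Lib.Dade.PB Cfsg.Agent.Lib.Dade.PC Cfsg.Agent.Lib.Dade.PF

universe u v

section Group

variable {F : Type v} [Group F] [Fintype F] {Q : Subgroup F}

attribute [local instance] fK fIrr fBl fDual fOrb fB

/-- A large Sylow subgroup of small index is normal. -/
theorem normal_of_card {p : ℕ} [Fact p.Prime] {e a : ℕ} (he : Nat.card F = Nat.card Q * e) (hQa : Nat.card Q = p ^ a)
    (hpe : ¬ p ∣ e) (hlt : e < p) : Q.Normal := by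
  have hp : p.Prime := Fact.out
  have he0 : e ≠ 0 := fun h => hpe (h ▸ dvd_zero p)
  have hfac : (Nat.card F).factorization p = a := by
    rw [he, hQa, Nat.factorization_mul (pow_ne_zero _ hp.ne_zero) he0, Finsupp.add_apply, hp.factorization_pow,
      Nat.factorization_eq_zero_of_not_dvd hpe]
    simp
  let S : Sylow p F := Sylow.ofCard Q (by rw [hfac, hQa])
  have hS : (S : Subgroup F) = Q := rfl
  have hidx : Q.index = e := by
    have h1 := Subgroup.card_mul_index Q
    rw [he] at h1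
    exact Nat.eq_of_mul_eq_mul_left Nat.card_pos h1
  have h1 : Nat.card (Sylow p F) ≡ 1 [MOD p] := card_sylow_modEq_one p F
  have h2 : Nat.card (Sylow p F) ∣ e := by
    have := S.card_dvd_index
    rwa [hS, hidx] at this
  have h3 : Nat.card (Sylow p F) ≤ e := Nat.le_of_dvd (Nat.pos_of_ne_zero he0) h2
  have h4 : Nat.card (Sylow p F) = 1 := by
    have h5 : Nat.card (Sylow p F) % p = 1 % p := h1
    rw [Nat.mod_eq_of_lt (lt_of_le_of_lt h3 hlt), Nat.mod_eq_of_lt hp.one_lt] at h5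
    exact h5
  haveI : Subsingleton (Sylow p F) := (Nat.card_eq_one_iff_unique.mp h4).1
  rw [← hS]
  exact S.normal_of_subsingleton

/-- With `Q` normal, everything stabilizes the set of all characters of the centralizer. -/
theorem mem_stabSub_univ [Q.Normal] (f : F) : f ∈ stabSub Q (UU Q) := by
  rw [mem_stabSub]
  have hf : f ∈ Subgroup.normalizer (Q : Set F) := by
    rw [Subgroup.mem_normalizer_iff]
    intro h
    have hn : Q.Normal := inferInstance
    refine ⟨fun hh => hn.conj_mem h hh f, fun hh => ?_⟩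
    have h1 := hn.conj_mem _ hh f⁻¹
    have e : f⁻¹ * (f * h * f⁻¹) * f⁻¹⁻¹ = h := by group
    rwa [e] at h1
  have hgK := Cfsg.Agent.Lib.BlockH.Pairs.mem_normalizer_centralizer hf
  refine ⟨hf, hgK, fun χ _ => ?_⟩
  let σ := Cfsg.Agent.Lib.BlockH.Pairs.conjOfNormalizer hgK
  have hσ : ∀ k k' : Subgroup.centralizer (Q : Set F), (k' : F) = f * (k : F) * f⁻¹ → σ.symm k' = k := by
    intro k k' h
    apply Subtype.ext
    rw [Cfsg.Agent.Lib.BlockH.Pairs.coe_conjOfNormalizer_symm, h]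
    group
  refine ⟨⟨(χ : Subgroup.centralizer (Q : Set F) → ℂ) ∘ σ.symm,
    Cfsg.Agent.Lib.Char.Conj.isIrrCharacter_comp_mulEquiv σ.symm χ.2⟩, trivial, fun k k' hk => ?_⟩
  change (χ : Subgroup.centralizer (Q : Set F) → ℂ) (σ.symm k') = _
  rw [hσ k k' hk]

/-- The quotient by a self-centralizing cyclic normal subgroup is commutative. -/
theorem comm_quotient [Q.Normal] (hQ : IsCyclic Q) (hQC : Subgroup.centralizer (Q : Set F) = Q) (a b : F ⧸ Q) :
    a * b = b * a := by
  obtain ⟨f, rfl⟩ := QuotientGroup.mk'_surjective Q a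
  obtain ⟨g, rfl⟩ := QuotientGroup.mk'_surjective Q b
  rw [← map_mul, ← map_mul, QuotientGroup.mk'_apply, QuotientGroup.mk'_apply, QuotientGroup.eq]
  rw [← hQC, Subgroup.mem_centralizer_iff]
  intro u hu
  have hact : ∀ h : F, ∃ m : ℤ, ∀ v : Q, h * (v : F) * h⁻¹ = ((v ^ m : Q) : F) := by
    intro h
    let σ : Q →* Q :=
      { toFun := fun v => ⟨h * (v : F) * h⁻¹, (inferInstance : Q.Normal).conj_mem v v.2 h⟩
        map_one' := by
          apply Subtype.ext
          simp
        map_mul' := fun x y => by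
          apply Subtype.ext
          simp [mul_assoc] }
    obtain ⟨m, hm⟩ := MonoidHom.map_cyclic σ
    exact ⟨m, fun v => congrArg Subtype.val (hm v)⟩
  obtain ⟨m₁, hm₁⟩ := hact f
  obtain ⟨m₂, hm₂⟩ := hact g
  have h1 : f * (g * u * g⁻¹) * f⁻¹ = g * (f * u * f⁻¹) * g⁻¹ := by
    have e1 := hm₂ ⟨u, hu⟩
    have e2 := hm₁ ⟨u, hu⟩
    simp only at e1 e2
    rw [e1, e2, hm₁, hm₂, ← zpow_mul, ← zpow_mul, mul_comm]
  have h2 : (f * g) * u * (f * g)⁻¹ = (g * f) * u * (g * f)⁻¹ := by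
    calc (f * g) * u * (f * g)⁻¹ = f * (g * u * g⁻¹) * f⁻¹ := by group
      _ = g * (f * u * f⁻¹) * g⁻¹ := h1
      _ = _ := by group
  symm
  calc ((f * g)⁻¹ * (g * f)) * u = (f * g)⁻¹ * ((g * f) * u * (g * f)⁻¹) * (g * f) := by group
    _ = (f * g)⁻¹ * ((f * g) * u * (f * g)⁻¹) * (g * f) := by rw [h2]
    _ = _ := by group

end Group

section Main

variable {G : Type u} [Group G] [Fintype G] {F : Type v} [Group F] [Fintype F] {p : ℕ} [Fact p.Prime]
  {M : Ideal AlgInt} {B : Set (IrrCharacter G)} {P : Subgroup G}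
  {c : Set (IrrCharacter (Subgroup.centralizer (P : Set G)))} {Q : Subgroup F}

attribute [local instance] fK fIrr fBl fDual fOrb fB

/-- The action of the stabilizer on `P` and the action of `F` on `Q` have the same image. -/
theorem exists_act (L : Data p M B P c) (φ : Q ≃* P) (hp2 : p = 2 → (Subgroup.centralizer (P : Set G)).relIndex (stabSub P c) = 1)
    [Q.Normal] (hcard : Nat.card F = Nat.card Q * (Subgroup.centralizer (P : Set G)).relIndex (stabSub P c))
    (hQC : Subgroup.centralizer (Q : Set F) = Q) :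
    (Data.actD : stabSub P c →* MulAut P).range =
      ((MulAut.congr φ).toMonoidHom.comp (Data.actD : stabSub Q (UU Q) →* MulAut Q)).range := by
  have hp : p.Prime := Fact.out
  set e := (Subgroup.centralizer (P : Set G)).relIndex (stabSub P c) with he
  have hc₁ : Nat.card (Data.actD : stabSub P c →* MulAut P).range = e := by
    rw [← Subgroup.index_ker]
    congr 1
    ext t
    rw [MonoidHom.mem_ker, Subgroup.mem_subgroupOf, Subgroup.mem_centralizer_iff]
    constructor
    · intro h x hx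
      have h1 := DFunLike.congr_fun h ⟨x, hx⟩
      have h2 : ((t : G)) * x * (t : G)⁻¹ = x := congrArg Subtype.val h1
      calc x * (t : G) = (t : G) * x * (t : G)⁻¹ * (t : G) := by rw [h2]
        _ = _ := by group
    · intro h
      refine MulEquiv.ext fun w => ?_
      apply Subtype.ext
      change (t : G) * w * (t : G)⁻¹ = w
      rw [← h _ w.2]
      group
  have hc₂ : Nat.card ((MulAut.congr φ).toMonoidHom.comp (Data.actD : stabSub Q (UU Q) →* MulAut Q)).range = e := by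
    rw [← Subgroup.index_ker]
    have hker : ((MulAut.congr φ).toMonoidHom.comp (Data.actD : stabSub Q (UU Q) →* MulAut Q)).ker =
        Q.subgroupOf (stabSub Q (UU Q)) := by
      ext t
      rw [MonoidHom.mem_ker, Subgroup.mem_subgroupOf]
      constructor
      · intro h
        refine hQC.le ?_
        rw [Subgroup.mem_centralizer_iff]
        intro x hx
        have h1 := DFunLike.congr_fun h (φ ⟨x, hx⟩)
        have h2 : φ (Data.actD t (φ.symm (φ ⟨x, hx⟩))) = φ ⟨x, hx⟩ := h1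
        rw [MulEquiv.symm_apply_apply] at h2
        have h3 := φ.injective h2
        have h4 : ((t : F)) * x * (t : F)⁻¹ = x := congrArg Subtype.val h3
        calc x * (t : F) = (t : F) * x * (t : F)⁻¹ * (t : F) := by rw [h4]
          _ = _ := by group
      · intro h
        have h0 : (t : F) ∈ Subgroup.centralizer (Q : Set F) := by
          rw [hQC]
          exact h
        refine MulEquiv.ext fun w => ?_
        change φ (Data.actD t (φ.symm w)) = w
        have h1 : Data.actD t (φ.symm w) = φ.symm w := by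
          apply Subtype.ext
          change (t : F) * (φ.symm w : Q) * (t : F)⁻¹ = (φ.symm w : Q)
          rw [← Subgroup.mem_centralizer_iff.mp h0 _ (φ.symm w).2]
          group
        rw [h1, MulEquiv.apply_symm_apply]
    rw [hker]
    have hle : Q ≤ stabSub Q (UU Q) := fun f _ => mem_stabSub_univ f
    have h1 := Subgroup.card_mul_index (Q.subgroupOf (stabSub Q (UU Q)))
    have h2 : Nat.card (stabSub Q (UU Q)) = Nat.card F :=
      Nat.card_congr (Equiv.subtypeUnivEquiv mem_stabSub_univ)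
    have h3 : Nat.card (Q.subgroupOf (stabSub Q (UU Q))) = Nat.card Q :=
      Nat.card_congr (Subgroup.subgroupOfEquivOfLe hle).toEquiv
    rw [h2, h3, hcard] at h1
    exact Nat.eq_of_mul_eq_mul_left Nat.card_pos h1
  by_cases h2 : p = 2
  · have h3 : e = 1 := hp2 h2
    rw [h3] at hc₁ hc₂
    rw [Subgroup.card_eq_one] at hc₁ hc₂
    rw [hc₁, hc₂]
  · obtain ⟨a, ha⟩ := L.hmax.1.1.1.exists_card_eq
    haveI hcP : IsCyclic P := L.hcyc
    have hu : IsCyclic (ZMod (Nat.card P))ˣ := by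
      rw [ha]
      exact ZMod.isCyclic_units_of_prime_pow p hp h2 a
    haveI : IsCyclic (MulAut P) :=
      isCyclic_of_injective (IsCyclic.mulAutMulEquiv P).toMonoidHom (IsCyclic.mulAutMulEquiv P).injective
    exact eq_of_card_eq_of_cyclic (hc₁.trans hc₂.symm)

/-- **The perfect isometry with the model.** -/
theorem main_model (hM : IsPModular p M) (hB : IsPBlock M B) (hPD : IsDefectGroup p M B P) (hP1 : P ≠ ⊥) (hcyc : IsCyclic P)
    (hc : IsInducedBlock M (Subgroup.centralizer (P : Set G)) c B) {e : ℕ}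
    (he : (Subgroup.centralizer (P : Set G)).relIndex (stabSub P c) = e) (hF : Nat.card F = Nat.card P * e)
    (hQ : IsCyclic Q) (hQcard : Nat.card Q = Nat.card P) (hQC : Subgroup.centralizer (Q : Set F) = Q) :
    ∃ (I : IrrCharacter F → IrrCharacter G) (ε : IrrCharacter F → ℤ),
      IsPerfectIsometry p M (Set.univ : Set (IrrCharacter F)) B I ε ∧
      ∀ η η' : IrrCharacter F, (∃ x ∈ Q, (η : F → ℂ) x ≠ (η : F → ℂ) 1) → (∃ x ∈ Q, (η' : F → ℂ) x ≠ (η' : F → ℂ) 1) →
        ε η = ε η' := by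
  classical
  have hp : p.Prime := Fact.out
  haveI := isPrime_of_pModular hM
  haveI := Cfsg.Agent.Lib.Char.Ortho.finite_irrCharacter (G := G)
  letI : Fintype (IrrCharacter G) := Fintype.ofFinite _
  haveI := Cfsg.Agent.Lib.Char.Ortho.finite_irrCharacter (G := F)
  letI : Fintype (IrrCharacter F) := Fintype.ofFinite _
  have hmax := isMaximal_of_induced hM hPD hc
  obtain ⟨L⟩ := exists_loc hM hmax hP1 hcyc
  have hPp : IsPGroup p P := Cfsg.Agent.Lib.Blocks.Defect2.isDefectGroup_isPGroup hPD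
  obtain ⟨a, ha⟩ := hPp.exists_card_eq
  obtain ⟨-, -, hepm, -⟩ := Cfsg.Agent.Lib.Dade.Main.main_structure hM hmax hP1 hcyc ha he
  have hpe : ¬ p ∣ e := by
    rw [← he]
    exact Cfsg.Agent.Lib.BlockH.CyclicDefect.not_dvd_relIndex_stab hM hmax (hab_of_cyclic hcyc)
  have hlt : e < p := by
    have h1 : e ≤ p - 1 := Nat.le_of_dvd (Nat.sub_pos_of_lt hp.one_lt) hepm
    have h2 := hp.two_le
    omega
  have hQa : Nat.card Q = p ^ a := hQcard.trans ha
  have hcard' : Nat.card F = Nat.card Q * e := by rw [hQcard]; exact hF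
  haveI hnorm : Q.Normal := normal_of_card hcard' hQa hpe hlt
  haveI hQc : IsCyclic Q := hQ
  haveI hPc : IsCyclic P := hcyc
  let φ : Q ≃* P := mulEquivOfCyclicCardEq hQcard
  have hp2 : p = 2 → (Subgroup.centralizer (P : Set G)).relIndex (stabSub P c) = 1 := by
    intro h2
    rw [he]
    rw [h2] at hepm
    simpa using hepm
  have hact := exists_act L φ hp2 (by rw [he]; exact hcard') hQC
  have hcongr : ∀ (t₂ : stabSub Q (UU Q)) (t₁ : stabSub P c),
      (Data.actD t₁ : MulAut P) = (MulAut.congr φ) (Data.actD t₂ : MulAut Q) →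
      ∀ w : Q, φ (Data.actD t₂ w) = Data.actD t₁ (φ w) := by
    intro t₂ t₁ h w
    rw [h]
    change _ = φ (Data.actD t₂ (φ.symm (φ w)))
    rw [MulEquiv.symm_apply_apply]
  have h21 : ∀ t₂ : stabSub Q (UU Q), ∃ t₁ : stabSub P c, ∀ w : Q, φ (Data.actD t₂ w) = Data.actD t₁ (φ w) := by
    intro t₂
    have h1 : (MulAut.congr φ) (Data.actD t₂ : MulAut Q) ∈ (Data.actD : stabSub P c →* MulAut P).range := by
      rw [hact]
      exact ⟨t₂, rfl⟩
    obtain ⟨t₁, ht₁⟩ := h1
    exact ⟨t₁, hcongr t₂ t₁ ht₁⟩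
  have h12 : ∀ t₁ : stabSub P c, ∃ t₂ : stabSub Q (UU Q), ∀ w : Q, φ (Data.actD t₂ w) = Data.actD t₁ (φ w) := by
    intro t₁
    have h1 : (Data.actD t₁ : MulAut P) ∈ ((MulAut.congr φ).toMonoidHom.comp
        (Data.actD : stabSub Q (UU Q) →* MulAut Q)).range := by
      rw [← hact]
      exact ⟨t₁, rfl⟩
    obtain ⟨t₂, ht₂⟩ := h1
    exact ⟨t₂, hcongr t₂ t₁ ht₂.symm⟩
  -- the free actions
  have htriv : ∀ (t₂ : stabSub Q (UU Q)) (t₁ : stabSub P c), (∀ w : Q, φ (Data.actD t₂ w) = Data.actD t₁ (φ w)) →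
      (t₁ : G) ∈ Subgroup.centralizer (P : Set G) → (t₂ : F) ∈ Q := by
    intro t₂ t₁ h ht₁
    refine hQC.le ?_
    rw [Subgroup.mem_centralizer_iff]
    intro x hx
    have h3 : Data.actD t₁ (φ ⟨x, hx⟩) = φ ⟨x, hx⟩ := by
      apply Subtype.ext
      change (t₁ : G) * (φ ⟨x, hx⟩ : P) * (t₁ : G)⁻¹ = (φ ⟨x, hx⟩ : P)
      rw [← Subgroup.mem_centralizer_iff.mp ht₁ _ (φ ⟨x, hx⟩).2]
      group
    have h4 := h ⟨x, hx⟩
    rw [h3] at h4
    have h5 := φ.injective h4
    have h6 : ((t₂ : F)) * x * (t₂ : F)⁻¹ = x := congrArg Subtype.val h5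
    calc x * (t₂ : F) = (t₂ : F) * x * (t₂ : F)⁻¹ * (t₂ : F) := by rw [h6]
      _ = _ := by group
  have hfreeS : ∀ (t : stabSub Q (UU Q)) (u : Q), u ≠ 1 → Data.actD t u = u → (t : F) ∈ Q := by
    intro t u hu h
    obtain ⟨t₁, ht₁⟩ := h21 t
    have h1 : Data.actD t₁ (φ u) = φ u := by rw [← ht₁, h]
    have hne : ((φ u : P) : G) ≠ 1 := by
      intro h0
      apply hu
      apply φ.injective
      rw [map_one]
      exact Subtype.ext h0
    exact htriv t t₁ ht₁ (free_of_cyclic hM hmax hP1 hcyc t₁ t₁.2 _ (φ u).2 hne (congrArg Subtype.val h1))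
  have hfreeD : ∀ (t : stabSub Q (UU Q)) (γ : Q →* ℂˣ), γ ≠ 1 → Data.dA t γ = γ → (t : F) ∈ Q := by
    intro t γ hγ h
    obtain ⟨t₁, ht₁⟩ := h21 t
    refine htriv t t₁ ht₁ ?_
    by_contra hn
    have h1 : Data.dA t₁ (γ.comp φ.symm.toMonoidHom) = γ.comp φ.symm.toMonoidHom := by
      refine MonoidHom.ext fun x => ?_
      rw [Data.dA_apply]
      change γ (φ.symm (Data.actD t₁⁻¹ x)) = γ (φ.symm x)
      conv_rhs => rw [← h]
      rw [Data.dA_apply]
      congr 1
      set v := Data.actD t⁻¹ (φ.symm x) with hv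
      have h3 : Data.actD t v = φ.symm x := by
        rw [hv, ← MulAut.mul_apply, ← map_mul]
        simp
      have h4 := ht₁ v
      rw [h3, MulEquiv.apply_symm_apply] at h4
      rw [h4, ← MulAut.mul_apply, ← map_mul]
      simp
    have h2 := L.dA_free hn h1
    apply hγ
    refine MonoidHom.ext fun w => ?_
    have h3 := DFunLike.congr_fun h2 (φ w)
    simpa using h3
  have hQab : ∀ a b : Q, a * b = b * a := fun a b => by
    letI := IsCyclic.commGroup (α := Q)
    exact mul_comm a b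
  have hQp : IsPGroup p Q := IsPGroup.of_card hQa
  obtain ⟨S₂, hS₂⟩ := exists_deco_F (M := M) (mem_stabSub_univ (Q := Q)) hQab hfreeS hfreeD hM hQp hcard' hpe
    (comm_quotient hQ hQC)
  have hS₁ : Nonempty (Deco p M B (Nat.card Q) (fun (i : Orb P c) (u : Sh P) => sig i u.1) e) := by
    rw [hQcard, ← he]
    exact exists_deco hM hmax hP1 hcyc
  obtain ⟨S₁⟩ := hS₁
  obtain ⟨π, hπ⟩ := exists_orb_equiv (c₁ := c) (c₂ := UU Q) φ h21 h12
  let φ' : Sh Q ≃ Sh P := φ.toEquiv.subtypeEquiv (fun w => not_congr (map_eq_one_iff φ φ.injective).symm)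
  obtain ⟨χ₀, -⟩ := isPBlock_nonempty hB
  obtain ⟨I, ε, hP, hε⟩ := Deco.perfect S₁ S₂ φ' π (fun j u => hπ j u.1) hM χ₀
  refine ⟨I, ε, hP, ?_⟩
  have hY : ∀ η : IrrCharacter F, (∃ x ∈ Q, (η : F → ℂ) x ≠ (η : F → ℂ) 1) → ε η = S₁.ε₀ * S₂.ε₀ := by
    rintro η ⟨x, hx, hne⟩
    by_cases h : (⟨η, trivial⟩ : (Set.univ : Set (IrrCharacter F))) ∈ Set.range S₂.ν
    · obtain ⟨j, hj⟩ := h
      rw [← hε j, hj]
    · exact absurd (hS₂ _ h x hx) hne
  intro η η' h1 h2
  rw [hY η h1, hY η' h2]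

end Main

end Cfsg.Agent.Lib.Dade.PG
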